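import Mathlib

set_option autoImplicit false

namespace Cfsg.Agent.H4

open Subgroup

/-- An element of `p`-power order normalizing a Sylow `p`-subgroup lies in it. -/
theorem mem_sylow_of_mem_normalizer {G : Type*} [Group G] {p : ℕ} (P : Sylow p G) {x : G}
    (hx : IsPGroup p (zpowers x)) (hn : x ∈ normalizer ((P : Subgroup G) : Set G)) :
    x ∈ (P : Subgroup G) := by
  have h := hx.inf_normalizer_sylow P
  have : x ∈ zpowers x ⊓ normalizer (P : Set G) := ⟨mem_zpowers x, hn⟩
  rw [h] at this
  exact this.2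

theorem isPGroup_zpowers_of_orderOf {G : Type*} [Group G] {p : ℕ} {x : G} {k : ℕ}
    (hx : orderOf x = p ^ k) : IsPGroup p (zpowers x) := by
  intro y
  obtain ⟨y, hy⟩ := y
  obtain ⟨n, rfl⟩ := mem_zpowers_iff.mp hy
  refine ⟨k, ?_⟩
  apply Subtype.ext
  simp only [SubmonoidClass.mk_pow, OneMemClass.coe_one]
  rw [← zpow_natCast, ← zpow_mul, mul_comm, zpow_mul, zpow_natCast, ← hx, pow_orderOf_eq_one, one_zpow]

/-- Sylow's second theorem, elementwise. -/
theorem sylow_conj {G : Type*} [Group G] [Finite G] {p : ℕ} [Fact p.Prime] (P Q : Sylow p G) :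
    ∃ g : G, ∀ x, x ∈ (Q : Subgroup G) ↔ g⁻¹ * x * g ∈ (P : Subgroup G) := by
  obtain ⟨g, hg⟩ := MulAction.exists_smul_eq G P Q
  refine ⟨g, fun x => ?_⟩
  rw [← hg, Sylow.coe_subgroup_smul, Subgroup.mem_pointwise_smul_iff_inv_smul_mem]
  simp [MulAut.smul_def, MulAut.conj_apply]

/-- If a Sylow `p`-subgroup centralizes an element of `p`-power order, the element lies in it. -/
theorem mem_sylow_of_commute {G : Type*} [Group G] {p : ℕ} (P : Sylow p G) {x : G}
    (hx : IsPGroup p (zpowers x)) (hc : ∀ y ∈ (P : Subgroup G), y * x = x * y) :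
    x ∈ (P : Subgroup G) := by
  apply mem_sylow_of_mem_normalizer P hx
  rw [Subgroup.mem_normalizer_iff]
  intro h
  constructor
  · intro hh
    rw [← hc h hh]; simpa using hh
  · intro hh
    have := hc _ hh
    have h2 : x * h * x⁻¹ = h := by
      have h3 : x * h = x * (x * h * x⁻¹) := by simpa using this
      exact (mul_left_cancel h3).symm
    rwa [h2] at hh

end Cfsg.Agent.H4
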