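import Mathlib
import Cfsg.Agent.H4.CW4

/-!
# Anisotropic quadratic maps; complements in elementary abelian 2-groups (helper4)
-/

set_option autoImplicit false

namespace Cfsg.Agent.H4.CW

open Subgroup

universe u

lemma zpowers_cases {X : Type*} [Group X] {u : X} (hu : u ^ 2 = 1) :
    ∀ z ∈ zpowers u, z = 1 ∨ z = u := by
  intro z hz
  obtain ⟨i, rfl⟩ := mem_zpowers_iff.1 hz
  obtain ⟨j, rfl | rfl⟩ := Int.even_or_odd' i
  · left
    rw [zpow_mul, zpow_ofNat, hu, one_zpow]
  · right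
    rw [zpow_add, zpow_mul, zpow_ofNat, hu, one_zpow, one_mul, zpow_one]

theorem exists_compl {X : Type*} [CommGroup X] [Finite X] (hexp : ∀ x : X, x ^ 2 = 1)
    (U : Subgroup X) : ∃ W : Subgroup X, W ⊓ U = ⊥ ∧ Nat.card W * Nat.card U = Nat.card X := by
  obtain ⟨W, hW, hmax⟩ := Set.Finite.exists_maximal
    (s := {W : Subgroup X | W ⊓ U = ⊥}) (Set.toFinite _) ⟨⊥, bot_inf_eq U⟩
  have hW' : W ⊓ U = ⊥ := hW
  have htop : W ⊔ U = ⊤ := by
    rw [eq_top_iff]
    intro x _
    by_contra hx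
    have h1 : (W ⊔ zpowers x) ⊓ U = ⊥ := by
      rw [eq_bot_iff]
      intro y hy
      obtain ⟨hy1, hy2⟩ := mem_inf.1 hy
      obtain ⟨w, hw, z, hz, rfl⟩ := mem_sup.1 hy1
      rcases zpowers_cases (hexp x) z hz with rfl | rfl
      · rw [mul_one] at hy2 ⊢
        rw [← hW']
        exact mem_inf.2 ⟨hw, hy2⟩
      · exfalso
        apply hx
        have : z = w⁻¹ * (w * z) := by group
        rw [this]
        exact mul_mem_sup (W.inv_mem hw) hy2
    have h2 : W ⊔ zpowers x ≤ W := hmax h1 le_sup_left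
    exact hx (le_sup_left (a := W) (h2 (le_sup_right (a := W) (mem_zpowers x))))
  refine ⟨W, hW', ?_⟩
  rw [← Cfsg.H1.card_sup_of_disjoint (K := W) (A := U) (by rw [normalizer_eq_top]; exact le_top)
    (disjoint_iff.2 hW'), htop, card_top]

theorem aniso_bound {V : Type u} [Group V] [Finite V] {T : Type*} [Group T] {m l : ℕ}
    (hV : Nat.card V = 2 ^ m) (q : V → T) (β : V → V → T)
    (hq : ∀ x y, q (x * y) = q x * q y * β x y) (hβ : ∀ x y z, β (x * y) z = β x z * β y z)
    (lam : Fin l → T → ZMod 2) (hlam : ∀ i a b, lam i (a * b) = lam i a + lam i b)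
    (hsep : ∀ z, (∀ i, lam i z = 0) → z = 1) (han : ∀ v, q v = 1 → v = 1) : m ≤ 2 * l := by
  by_contra hcon
  push Not at hcon
  letI : Fintype V := Fintype.ofFinite V
  have hev := even_zeros (V := V) (m := m) (by rw [← Nat.card_eq_fintype_card, hV]) q β hq hβ
    lam hlam hsep hcon
  have hβ1 : β 1 1 = 1 := by
    have := hβ 1 1 1
    rw [mul_one] at this
    exact (left_eq_mul.1 this)
  have hq1 : q 1 = 1 := by
    have := hq 1 1
    rw [mul_one, hβ1, mul_one] at this
    exact (left_eq_mul.1 this)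
  have : Nat.card {v : V // q v = 1} = 1 := by
    rw [Nat.card_eq_one_iff_unique]
    refine ⟨⟨fun a b => Subtype.ext ?_⟩, ⟨⟨1, hq1⟩⟩⟩
    rw [han a a.2, han b b.2]
  rw [this] at hev
  exact absurd hev (by decide)

lemma card_comap_mk {P : Type*} [Group P] [Finite P] (Z : Subgroup P) [Z.Normal]
    (U : Subgroup (P ⧸ Z)) :
    Nat.card (U.comap (QuotientGroup.mk' Z)) = Nat.card U * Nat.card Z := by
  have h1 : (U.comap (QuotientGroup.mk' Z)).index = U.index :=
    index_comap_of_surjective U (QuotientGroup.mk'_surjective _)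
  have h2 := (U.comap (QuotientGroup.mk' Z)).card_mul_index
  have h3 := U.card_mul_index
  have h4 := Subgroup.card_eq_card_quotient_mul_card_subgroup Z
  rw [h1, h4, ← h3] at h2
  have h5 : Nat.card (U.comap (QuotientGroup.mk' Z)) * U.index =
      (Nat.card U * Nat.card Z) * U.index := by
    rw [h2]; ring
  exact Nat.eq_of_mul_eq_mul_right (Nat.pos_of_ne_zero (Subgroup.index_ne_zero_of_finite)) h5

end Cfsg.Agent.H4.CW
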