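import Mathlib
import Cfsg.Prelude.Def_Transfer
import Cfsg.Agent.H4.CW5

/-!
# 2-groups of class two and exponent four whose involutions form a subgroup (helper4)
-/

set_option autoImplicit false

namespace Cfsg.Agent.H4.CW

open Subgroup

theorem order_bound {G : Type*} [Group G] [Finite G] (hG : IsPGroup 2 G)
    (hcen : ∀ x y : G, x * y * x⁻¹ * y⁻¹ ∈ center G) (hexp : ∀ x : G, x ^ 4 = 1)
    (hN : ∀ x y : G, x ^ 2 = 1 → y ^ 2 = 1 → (x * y) ^ 2 = 1) :
    Nat.card G ≤ Nat.card {x : G // x ^ 2 = 1} ^ 3 ∧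
      (¬ Cfsg.IsSpecial 2 G → Nat.card G < Nat.card {x : G // x ^ 2 = 1} ^ 3) := by
  classical
  haveI : Fact (Nat.Prime 2) := ⟨Nat.prime_two⟩
  have hc2 := comm_sq_eq_one hcen hexp
  have hsqc : ∀ x : G, x ^ 2 ∈ center G := by
    intro x
    rw [mem_center_iff]
    intro y
    have := mul_sq_comm_cl2 hcen x y
    rw [inv_pow, hc2, inv_one, one_mul] at this
    exact this
  have hFle : frattini G ≤ N0 G := by
    apply Cfsg.H1.frattini_pgroup_le 2 (N0 G)
    · rw [commutator_def, Subgroup.commutator_le]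
      intro x _ y _
      exact ⟨hcen x y, hc2 x y⟩
    · intro x
      exact ⟨hsqc x, by rw [← pow_mul]; exact hexp x⟩
  have hZc : frattini G ≤ center G := fun z hz => (hFle hz).1
  have hZ2 : ∀ z ∈ frattini G, z ^ 2 = 1 := fun z hz => (hFle hz).2
  have hsq : ∀ x : G, x ^ 2 ∈ frattini G := (Cfsg.H1.frattini_pgroup_ge 2 hG).2
  have hcomm : ∀ x y : G, x * y * x⁻¹ * y⁻¹ ∈ frattini G := fun x y =>
    (Cfsg.H1.frattini_pgroup_ge 2 hG).1 (by
      rw [commutator_def]
      exact commutator_mem_commutator (mem_top x) (mem_top y))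
  obtain ⟨l, hl⟩ := IsPGroup.iff_card.1 (hG.to_subgroup (frattini G))
  obtain ⟨d, hd⟩ := IsPGroup.iff_card.1 (hG.to_quotient (frattini G))
  have hZcomm : ∀ a b : frattini G, a * b = b * a :=
    fun a b => Subtype.ext ((mem_center_iff.1 (hZc a.2) b).symm)
  have hQcomm : ∀ a b : G ⧸ frattini G, a * b = b * a := by
    intro a b
    obtain ⟨x, rfl⟩ := QuotientGroup.mk_surjective a
    obtain ⟨y, rfl⟩ := QuotientGroup.mk_surjective b
    rw [← QuotientGroup.mk_mul, ← QuotientGroup.mk_mul, QuotientGroup.eq]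
    have := hcomm y⁻¹ x⁻¹
    rw [inv_inv, inv_inv] at this
    have e : (x * y)⁻¹ * (y * x) = y⁻¹ * x⁻¹ * y * x := by group
    rw [e]
    exact this
  have hQ2 : ∀ a : G ⧸ frattini G, a ^ 2 = 1 := by
    intro a
    obtain ⟨x, rfl⟩ := QuotientGroup.mk_surjective a
    rw [← QuotientGroup.mk_pow]
    exact (QuotientGroup.eq_one_iff _).2 (hsq x)
  -- the quadratic map
  let q₀ : G ⧸ frattini G → frattini G := Quotient.lift (fun x : G => (⟨x ^ 2, hsq x⟩ : frattini G))
    (by
      intro a b hab
      have hz : a⁻¹ * b ∈ frattini G := QuotientGroup.leftRel_apply.1 hab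
      apply Subtype.ext
      show a ^ 2 = b ^ 2
      have hb : b = a * (a⁻¹ * b) := by group
      have hc : Commute a (a⁻¹ * b) := mem_center_iff.1 (hZc hz) a
      rw [hb, hc.mul_pow, hZ2 _ hz, mul_one])
  have hq₀ : ∀ x : G, q₀ (QuotientGroup.mk x) = ⟨x ^ 2, hsq x⟩ := fun x => rfl
  let β₀ : G ⧸ frattini G → G ⧸ frattini G → frattini G :=
    fun v w => (q₀ w)⁻¹ * (q₀ v)⁻¹ * q₀ (v * w)
  have hβ₀ : ∀ x z : G, β₀ (QuotientGroup.mk x) (QuotientGroup.mk z) =
      RankCl2.commHom (frattini G) hZc hcomm z x := by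
    intro x z
    apply Subtype.ext
    show (z ^ 2)⁻¹ * (x ^ 2)⁻¹ * (x * z) ^ 2 = x * z * x⁻¹ * z⁻¹
    rw [mul_sq_cl2 hcen x z]
    have h1 : (x * z * x⁻¹ * z⁻¹)⁻¹ = x * z * x⁻¹ * z⁻¹ := by
      rw [inv_eq_iff_mul_eq_one, ← sq, hc2]
    rw [h1]
    have h2 := mem_center_iff.1 (hcen x z) ((z ^ 2)⁻¹ * (x ^ 2)⁻¹)
    calc (z ^ 2)⁻¹ * (x ^ 2)⁻¹ * (x * z * x⁻¹ * z⁻¹ * (x ^ 2 * z ^ 2))
        = ((z ^ 2)⁻¹ * (x ^ 2)⁻¹ * (x * z * x⁻¹ * z⁻¹)) * (x ^ 2 * z ^ 2) := by group
      _ = ((x * z * x⁻¹ * z⁻¹) * ((z ^ 2)⁻¹ * (x ^ 2)⁻¹)) * (x ^ 2 * z ^ 2) := by rw [h2]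
      _ = x * z * x⁻¹ * z⁻¹ := by group
  have hq : ∀ v w, q₀ (v * w) = q₀ v * q₀ w * β₀ v w := by
    intro v w
    show _ = q₀ v * q₀ w * ((q₀ w)⁻¹ * (q₀ v)⁻¹ * q₀ (v * w))
    group
  have hβ : ∀ u v w, β₀ (u * v) w = β₀ u w * β₀ v w := by
    intro u v w
    obtain ⟨x, rfl⟩ := QuotientGroup.mk_surjective u
    obtain ⟨y, rfl⟩ := QuotientGroup.mk_surjective v
    obtain ⟨z, rfl⟩ := QuotientGroup.mk_surjective w
    rw [← QuotientGroup.mk_mul, hβ₀, hβ₀, hβ₀, map_mul]
  letI iT : CommGroup (frattini G) :=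
    { (inferInstance : Group (frattini G)) with mul_comm := hZcomm }
  letI iV : CommGroup (G ⧸ frattini G) :=
    { (inferInstance : Group (G ⧸ frattini G)) with mul_comm := hQcomm }
  obtain ⟨lam, hlam, hsep⟩ := exists_coords (T := frattini G)
    (fun a => Subtype.ext (hZ2 a a.2)) hl
  let U₀ : Subgroup (G ⧸ frattini G) :=
    { carrier := {v | q₀ v = 1}
      mul_mem' := by
        intro a b ha hb
        obtain ⟨x, rfl⟩ := QuotientGroup.mk_surjective a
        obtain ⟨y, rfl⟩ := QuotientGroup.mk_surjective b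
        have hx : x ^ 2 = 1 := congrArg Subtype.val ha
        have hy : y ^ 2 = 1 := congrArg Subtype.val hb
        exact Subtype.ext (hN x y hx hy)
      one_mem' := Subtype.ext (one_pow 2)
      inv_mem' := by
        intro a ha
        obtain ⟨x, rfl⟩ := QuotientGroup.mk_surjective a
        have hx : x ^ 2 = 1 := congrArg Subtype.val ha
        exact Subtype.ext (by show (x⁻¹) ^ 2 = 1; rw [inv_pow, hx, inv_one]) }
  have hU₀mem : ∀ v, v ∈ U₀ ↔ q₀ v = 1 := fun v => Iff.rfl
  have hNcard : Nat.card {x : G // x ^ 2 = 1} = Nat.card U₀ * 2 ^ l := by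
    rw [← hl, ← card_comap_mk]
    apply Nat.card_congr
    exact Equiv.subtypeEquivRight (fun x => by
      rw [mem_comap]
      constructor
      · intro hx; exact Subtype.ext hx
      · intro hx; exact congrArg Subtype.val hx)
  obtain ⟨W, hWU, hWcard⟩ := exists_compl hQ2 U₀
  have hVp : IsPGroup 2 (G ⧸ frattini G) := hG.to_quotient _
  obtain ⟨w, hw⟩ := IsPGroup.iff_card.1 (hVp.to_subgroup W)
  obtain ⟨u, hu⟩ := IsPGroup.iff_card.1 (hVp.to_subgroup U₀)
  have hdwu : d = w + u := by
    rw [hw, hu, hd, ← pow_add] at hWcard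
    exact (Nat.pow_right_injective (le_refl 2) hWcard).symm
  have hw2l : w ≤ 2 * l := aniso_bound (V := W) hw (fun v => q₀ v) (fun v v' => β₀ v v')
    (fun x y => hq _ _) (fun x y z => hβ _ _ _) lam hlam hsep (by
      intro v hv
      have : (v : G ⧸ frattini G) ∈ W ⊓ U₀ := mem_inf.2 ⟨v.2, hv⟩
      rw [hWU, mem_bot] at this
      exact Subtype.ext this)
  have hGcard : Nat.card G = 2 ^ (d + l) := by
    rw [Subgroup.card_eq_card_quotient_mul_card_subgroup (frattini G), hd, hl, pow_add]
  rw [hNcard, hu, hGcard, ← pow_add, ← pow_mul]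
  constructor
  · apply Nat.pow_le_pow_right (by norm_num)
    omega
  · intro hns
    apply Nat.pow_lt_pow_right (by norm_num)
    by_contra hge
    push Not at hge
    have hu0 : u = 0 := by omega
    have hd2l : d = 2 * l := by omega
    apply hns
    have han : ∀ v, q₀ v = 1 → v = 1 := by
      intro v hv
      rw [hu0, pow_zero] at hu
      have hb : U₀ = ⊥ := card_eq_one.1 hu
      have : v ∈ U₀ := hv
      rw [hb, mem_bot] at this
      exact this
    have hA : center G ≤ frattini G := by
      intro z hz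
      by_contra hzZ
      have hz1 : (QuotientGroup.mk z : G ⧸ frattini G) ≠ 1 :=
        fun h => hzZ ((QuotientGroup.eq_one_iff z).1 h)
      set t : frattini G := q₀ (QuotientGroup.mk z) with ht
      have ht1 : t ≠ 1 := fun h => hz1 (han _ h)
      have ht2 : t ^ 2 = 1 := Subtype.ext (hZ2 t t.2)
      have hβz : ∀ v, β₀ v (QuotientGroup.mk z) = 1 := by
        intro v
        obtain ⟨x, rfl⟩ := QuotientGroup.mk_surjective v
        rw [hβ₀]
        apply Subtype.ext
        show x * z * x⁻¹ * z⁻¹ = 1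
        rw [mem_center_iff.1 hz x]
        group
      obtain ⟨M, hzM, hMcard⟩ := exists_index_two_avoiding hQ2 hz1
      have hl1 : 1 ≤ l := by
        by_contra h
        have h0 : l = 0 := by omega
        rw [h0, pow_zero] at hl
        have := (Nat.card_eq_one_iff_unique.1 hl).1
        exact ht1 (Subsingleton.elim _ _)
      obtain ⟨l', rfl⟩ : ∃ l', l = l' + 1 := ⟨l - 1, by omega⟩
      have hT₁card : Nat.card (frattini G ⧸ zpowers t) = 2 ^ l' := by
        have h1 := Subgroup.card_eq_card_quotient_mul_card_subgroup (zpowers t)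
        rw [hl, Nat.card_zpowers, orderOf_eq_prime ht2 ht1, pow_succ] at h1
        exact (Nat.eq_of_mul_eq_mul_right (by norm_num) h1).symm
      obtain ⟨lam₁, hlam₁, hsep₁⟩ := exists_coords (T := frattini G ⧸ zpowers t) (fun a => by
        obtain ⟨y, rfl⟩ := QuotientGroup.mk_surjective a
        rw [← QuotientGroup.mk_pow, (Subtype.ext (hZ2 y y.2) : y ^ 2 = 1)]
        rfl) hT₁card
      have hMc : Nat.card M = 2 ^ (2 * l' + 1) := by
        rw [hd, hd2l] at hMcard
        have h1 : 2 ^ (2 * (l' + 1)) = 2 * 2 ^ (2 * l' + 1) := by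
          rw [← pow_succ']
          congr 1
        rw [h1] at hMcard
        exact (Nat.eq_of_mul_eq_mul_left (by norm_num) hMcard).symm
      have := aniso_bound (V := M) hMc
        (fun v => (QuotientGroup.mk (q₀ v) : frattini G ⧸ zpowers t))
        (fun v v' => QuotientGroup.mk (β₀ v v'))
        (by
          intro x y
          show (QuotientGroup.mk (q₀ ((x : G ⧸ frattini G) * y)) : frattini G ⧸ zpowers t) = _
          rw [hq]
          rfl)
        (by
          intro x y z
          show (QuotientGroup.mk (β₀ ((x : G ⧸ frattini G) * y) z) : frattini G ⧸ zpowers t) = _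
          rw [hβ]
          rfl) lam₁ hlam₁ hsep₁ (by
          intro v hv
          have h1 : q₀ v ∈ zpowers t := (QuotientGroup.eq_one_iff _).1 hv
          rcases zpowers_cases ht2 _ h1 with h | h
          · exact Subtype.ext (han _ h)
          · exfalso
            have h2 : q₀ ((v : G ⧸ frattini G) * QuotientGroup.mk z) = 1 := by
              rw [hq, h, hβz, mul_one, ← ht, ← sq, ht2]
            have h3 := han _ h2
            apply hzM
            have h4 : (QuotientGroup.mk z : G ⧸ frattini G) = (v : G ⧸ frattini G)⁻¹ :=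
              eq_inv_of_mul_eq_one_right h3
            rw [h4]
            exact M.inv_mem v.2)
      omega
    have hB : frattini G ≤ commutator G := by
      have hC'Z : commutator G ≤ frattini G := (Cfsg.H1.frattini_pgroup_ge 2 hG).1
      obtain ⟨c, hc⟩ := IsPGroup.iff_card.1 (hG.to_subgroup (commutator G))
      have hβC : ∀ v w, ((β₀ v w : frattini G) : G) ∈ commutator G := by
        intro v w
        obtain ⟨x, rfl⟩ := QuotientGroup.mk_surjective v
        obtain ⟨z, rfl⟩ := QuotientGroup.mk_surjective w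
        rw [hβ₀]
        show x * z * x⁻¹ * z⁻¹ ∈ commutator G
        rw [commutator_def]
        exact commutator_mem_commutator (mem_top x) (mem_top z)
      let s : (G ⧸ frattini G) →* (frattini G ⧸ (commutator G).subgroupOf (frattini G)) :=
        MonoidHom.mk' (fun v => QuotientGroup.mk (q₀ v)) (by
          intro v w
          rw [hq, QuotientGroup.mk_mul, (QuotientGroup.eq_one_iff (β₀ v w)).2 (hβC v w), mul_one,
            QuotientGroup.mk_mul])
      have hKmem : ∀ v ∈ s.ker, ((q₀ v : frattini G) : G) ∈ commutator G := by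
        intro v hv
        have h1 : (QuotientGroup.mk (q₀ v) :
            frattini G ⧸ (commutator G).subgroupOf (frattini G)) = 1 := MonoidHom.mem_ker.1 hv
        exact (QuotientGroup.eq_one_iff (q₀ v)).1 h1
      obtain ⟨κ, hκ⟩ := IsPGroup.iff_card.1 (hVp.to_subgroup s.ker)
      letI iC : CommGroup (commutator G) :=
        { (inferInstance : Group (commutator G)) with
          mul_comm := fun a b => Subtype.ext ((mem_center_iff.1 (hZc (hC'Z a.2)) b).symm) }
      obtain ⟨lam₂, hlam₂, hsep₂⟩ := exists_coords (T := commutator G)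
        (fun a => Subtype.ext (hZ2 a (hC'Z a.2))) hc
      have hκ2 : κ ≤ 2 * c := aniso_bound (V := s.ker) hκ
        (fun v => (⟨((q₀ v : frattini G) : G), hKmem v v.2⟩ : commutator G))
        (fun v w => ⟨((β₀ v w : frattini G) : G), hβC _ _⟩)
        (by
          intro x y
          apply Subtype.ext
          show ((q₀ ((x : G ⧸ frattini G) * y) : frattini G) : G) = _
          rw [hq]
          rfl)
        (by
          intro x y z
          apply Subtype.ext
          show ((β₀ ((x : G ⧸ frattini G) * y) z : frattini G) : G) = _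
          rw [hβ]
          rfl) lam₂ hlam₂ hsep₂
        (fun v hv => Subtype.ext (han _ (Subtype.ext
          (congrArg (Subtype.val : commutator G → G) hv))))
      have hidx : s.ker.index * 2 ^ c ≤ 2 ^ l := by
        have h1 := Subgroup.card_eq_card_quotient_mul_card_subgroup
          ((commutator G).subgroupOf (frattini G))
        rw [hl, Cfsg.H1.card_subgroupOf_of_le hC'Z, hc] at h1
        rw [h1, index_ker]
        exact Nat.mul_le_mul_right _ (Subgroup.card_le_card_group _)
      have h2 : 2 ^ (d + c) ≤ 2 ^ (κ + l) := by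
        have h3 := s.ker.card_mul_index
        rw [hκ, hd] at h3
        rw [pow_add, ← h3, pow_add, mul_assoc]
        exact Nat.mul_le_mul_left _ hidx
      have h3 := (Nat.pow_le_pow_iff_right (le_refl 2)).1 h2
      have hlc : l ≤ c := by omega
      have h4 : commutator G = frattini G := Subgroup.eq_of_le_of_card_ge hC'Z (by
        rw [hl, hc]
        exact Nat.pow_le_pow_right (by norm_num) hlc)
      rw [h4]
    have hFC : frattini G = center G := le_antisymm hZc hA
    refine ⟨hG, hFC, ?_⟩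
    rw [← hFC]
    exact le_antisymm (Cfsg.H1.frattini_pgroup_ge 2 hG).1 hB

end Cfsg.Agent.H4.CW
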