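import Mathlib
import Cfsg.Prelude.Def_SolvableStructure
import Cfsg.Agent.H4.Clt
import Cfsg.Agent.H4.Basic2

/-! System normalizers, part 1: nilpotency. -/

namespace Cfsg.Agent.H4

open Subgroup

theorem relIndex_dvd_index_of_le_normalizer {G : Type*} [Group G] (K D : Subgroup G)
    (h : D ≤ normalizer (K : Set G)) : K.relIndex D ∣ K.index := by
  have : (K.subgroupOf (normalizer (K : Set G))).Normal := normal_in_normalizer
  have h1 := relIndex_dvd_index_of_normal (K.subgroupOf (normalizer (K : Set G)))
    (D.subgroupOf (normalizer (K : Set G)))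
  rw [relIndex_subgroupOf h] at h1
  exact h1.trans (Dvd.intro _ (relIndex_mul_index (le_normalizer (H := K))))

/-- A finite group with a normal `q`-complement for every prime `q` is nilpotent. -/
theorem isNilpotent_of_normal_complements {D : Type*} [Group D] [Finite D]
    (h : ∀ q : ℕ, q.Prime → ∃ C : Subgroup D, C.Normal ∧ (∃ k, C.index = q ^ k) ∧
      ¬ q ∣ Nat.card C) : Group.IsNilpotent D := by
  apply ((Group.isNilpotent_of_finite_tfae (G := D)).out 0 3).2
  intro p hp P
  choose C hCn hCi hCc using h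
  set T : Subgroup D := ⨅ (q : ℕ) (hq : q.Prime) (_ : q ≠ p), C q hq with hT
  have hTn : T.Normal :=
    normal_iInf_normal fun q => normal_iInf_normal fun hq => normal_iInf_normal fun _ => hCn q hq
  have hPT : (P : Subgroup D) ≤ T := by
    rw [hT]
    refine le_iInf fun q => le_iInf fun hq => le_iInf fun hqp => ?_
    have := hCn q hq
    obtain ⟨k, hk⟩ := hCi q hq
    apply le_normal_of_coprime_index P.isPGroup'
    rw [hk]
    exact ((Nat.coprime_primes hq hp.out).2 hqp).pow_left k
  have hTp : IsPGroup p T := by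
    apply IsPGroup.of_card (n := (Nat.card T).primeFactorsList.length)
    apply Nat.eq_prime_pow_of_unique_prime_dvd Nat.card_pos.ne'
    intro q hq hqd
    by_contra hqp
    apply hCc q hq
    refine hqd.trans (Subgroup.card_dvd_of_le ?_)
    rw [hT]
    exact iInf_le_of_le q (iInf_le_of_le hq (iInf_le _ hqp))
  rw [← P.is_maximal' hTp hPT]
  exact hTn

theorem not_dvd_card_of_isComplementSystem {G : Type*} [Group G] [Finite G]
    {K : Nat.Primes → Subgroup G} (hK : Cfsg.IsComplementSystem K) (p : Nat.Primes) :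
    ¬ (p : ℕ) ∣ Nat.card (K p) := by
  intro hd
  have h1 := (K p).card_mul_index
  rw [hK p] at h1
  have h2 : (p : ℕ) ^ ((Nat.card G).factorization p + 1) ∣ Nat.card G := by
    have h3 : (p : ℕ) ^ ((Nat.card G).factorization p + 1) ∣
        Nat.card (K p) * (p : ℕ) ^ (Nat.card G).factorization p := by
      rw [pow_succ, mul_comm]
      exact mul_dvd_mul_right hd _
    rwa [h1] at h3
  exact Nat.pow_succ_factorization_not_dvd Nat.card_pos.ne' p.2 h2

theorem systemNormalizer_le {G : Type*} [Group G] (K : Nat.Primes → Subgroup G) (p : Nat.Primes) :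
    Cfsg.systemNormalizer K ≤ normalizer (K p : Set G) := iInf_le _ p

theorem systemNormalizer_isNilpotent {G : Type*} [Group G] [Finite G]
    (K : Nat.Primes → Subgroup G) (hK : Cfsg.IsComplementSystem K) :
    Group.IsNilpotent (Cfsg.systemNormalizer K) := by
  apply isNilpotent_of_normal_complements
  intro q hq
  have hle := systemNormalizer_le K ⟨q, hq⟩
  refine ⟨(K ⟨q, hq⟩).subgroupOf (Cfsg.systemNormalizer K), ?_, ?_, ?_⟩
  · rw [normal_subgroupOf_iff_le_normalizer_inf]
    intro x hx
    have h1 := hle hx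
    rw [mem_normalizer_iff] at h1 ⊢
    intro y
    rw [mem_inf, mem_inf, ← h1 y]
    constructor
    · rintro ⟨h2, h3⟩
      exact ⟨h2, mul_mem (mul_mem hx h3) (inv_mem hx)⟩
    · rintro ⟨h2, h3⟩
      refine ⟨h2, ?_⟩
      have := mul_mem (mul_mem (inv_mem hx) h3) hx
      simpa [mul_assoc] using this
  · have h1 := relIndex_dvd_index_of_le_normalizer _ _ hle
    rw [hK ⟨q, hq⟩] at h1
    obtain ⟨j, -, hj⟩ := (Nat.dvd_prime_pow hq).1 h1
    exact ⟨j, hj⟩
  · intro hd
    apply not_dvd_card_of_isComplementSystem hK ⟨q, hq⟩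
    refine hd.trans ?_
    rw [← Subgroup.card_map_of_injective (Subgroup.subtype_injective _), subgroupOf_map_subtype]
    exact Subgroup.card_dvd_of_le inf_le_left

end Cfsg.Agent.H4
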