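import Mathlib
import Cfsg.Prelude.Def_SolvableStructure
import Cfsg.Agent.H4.SysNorm
import Cfsg.Agent.H4.Subnormal2
import Cfsg.Agent.H4.Supersolvable4
import Cfsg.Agent.S0004
import Cfsg.Agent.S0007
import Cfsg.Agent.S0543

/-! System normalizers, part 2: quotients. -/

namespace Cfsg.Agent.H4

open Subgroup
open scoped Pointwise

theorem factorization_of_index {G : Type*} [Group G] [Finite G] (H : Subgroup G) {p b : ℕ}
    (hp : p.Prime) (h1 : ¬ p ∣ Nat.card H) (h2 : H.index = p ^ b) :
    (Nat.card G).factorization p = b := by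
  rw [← H.card_mul_index, h2, Nat.factorization_mul Nat.card_pos.ne' (pow_ne_zero _ hp.ne_zero),
    Finsupp.add_apply, Nat.factorization_eq_zero_of_not_dvd h1, hp.factorization_pow,
    Finsupp.single_eq_same, zero_add]

theorem isComplementSystem_map {G : Type*} [Group G] [Finite G] {K : Nat.Primes → Subgroup G}
    (hK : Cfsg.IsComplementSystem K) (N : Subgroup G) [N.Normal] :
    Cfsg.IsComplementSystem (fun p => (K p).map (QuotientGroup.mk' N)) := by
  intro p
  have h1 : ((K p).map (QuotientGroup.mk' N)).index ∣ (K p).index := by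
    rw [index_map, QuotientGroup.ker_mk',
      MonoidHom.range_eq_top.2 (QuotientGroup.mk'_surjective N), index_top, mul_one]
    exact index_dvd_of_le le_sup_left
  rw [hK p] at h1
  obtain ⟨b, -, hb⟩ := (Nat.dvd_prime_pow p.2).1 h1
  have h2 : ¬ (p : ℕ) ∣ Nat.card ((K p).map (QuotientGroup.mk' N)) :=
    fun hd => not_dvd_card_of_isComplementSystem hK p (hd.trans (card_map_dvd _ _))
  rw [factorization_of_index _ p.2 h2 hb, hb]

theorem index_conj_smul {G : Type*} [Group G] (g : G) (H : Subgroup G) :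
    (MulAut.conj g • H).index = H.index :=
  index_map_equiv H (MulAut.conj g)

theorem isComplementSystem_conj {G : Type*} [Group G] {K : Nat.Primes → Subgroup G}
    (hK : Cfsg.IsComplementSystem K) (g : G) :
    Cfsg.IsComplementSystem (fun p => MulAut.conj g • K p) := by
  intro p
  rw [index_conj_smul, hK p]

theorem coprime_card_index_of_isComplementSystem {G : Type*} [Group G] [Finite G]
    {K : Nat.Primes → Subgroup G} (hK : Cfsg.IsComplementSystem K) (p : Nat.Primes) :
    (Nat.card (K p)).Coprime (K p).index := by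
  rw [hK p]
  apply Nat.Coprime.pow_right
  exact ((Nat.Prime.coprime_iff_not_dvd p.2).2 (not_dvd_card_of_isComplementSystem hK p)).symm

theorem conj_rel_single {G : Type*} [Group G] [Finite G] [Group.IsSolvable G] (K L N : Subgroup G)
    [N.Normal] (hcop : (Nat.card K).Coprime K.index) (hKL : K.index = L.index)
    (hN : K ⊔ N = L ⊔ N) : ∃ m ∈ N, MulAut.conj m • K = L := by
  have hKH : K ≤ K ⊔ N := le_sup_left
  have hLH : L ≤ K ⊔ N := hN ▸ le_sup_left
  have hcard : Nat.card K = Nat.card L := by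
    have h1 := K.card_mul_index
    have h2 := L.card_mul_index
    rw [← hKL, ← h1] at h2
    exact (Nat.eq_of_mul_eq_mul_right (Nat.pos_of_ne_zero index_ne_zero_of_finite) h2).symm
  obtain ⟨h, hh⟩ := Cfsg.Agent.S0004.result (G := ↥(K ⊔ N)) (Nat.card K) (K.relIndex (K ⊔ N))
    (card_mul_relIndex_of_le hKH).symm
    (hcop.coprime_dvd_right (Dvd.intro _ (relIndex_mul_index hKH)))
    (K.subgroupOf (K ⊔ N)) (L.subgroupOf (K ⊔ N)) (card_subgroupOf_of_le hKH)
    ((card_subgroupOf_of_le hLH).trans hcard.symm)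
  rw [conj_smul_subgroupOf hKH, subgroupOf_inj, inf_eq_left.2 (conj_smul_le_of_le hKH h),
    inf_eq_left.2 hLH] at hh
  have hmem : (h : G) ∈ N ⊔ K := by
    rw [sup_comm]
    exact h.2
  obtain ⟨m, hm, k, hk, e⟩ := mem_sup_of_normal_left.1 hmem
  refine ⟨m, hm, ?_⟩
  rw [← hh, ← e, map_mul, mul_smul, conj_smul_eq_self_of_mem hk]

theorem relIndex_dvd_index_of_normal_right {G : Type*} [Group G] [Finite G] (X N : Subgroup G)
    [N.Normal] : X.relIndex N ∣ X.index := by
  rw [← relIndex_sup_normal]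
  exact Dvd.intro _ (relIndex_mul_index le_sup_left)

theorem conj_rel_finset {G : Type*} [Group G] [Finite G] [Group.IsSolvable G]
    (K L : Nat.Primes → Subgroup G) (hK : Cfsg.IsComplementSystem K)
    (hL : Cfsg.IsComplementSystem L) (N : Subgroup G) [N.Normal]
    (hN : ∀ p, K p ⊔ N = L p ⊔ N) (T : Finset Nat.Primes) :
    ∃ n ∈ N, ∀ p ∈ T, MulAut.conj n • K p = L p := by
  induction T using Finset.induction_on with
  | empty => exact ⟨1, one_mem _, by simp⟩
  | insert q T hq ih =>
    obtain ⟨g, hgN, hg⟩ := ih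
    obtain ⟨x₀, hx₀N, hx₀⟩ := conj_rel_single (K q) (L q) N
      (coprime_card_index_of_isComplementSystem hK q) ((hK q).trans (hL q).symm) (hN q)
    have hc0 : (L q).index.Coprime (⨅ p ∈ T, L p).index := by
      rw [Cfsg.Agent.S0543.index_iInf L hL, hL q]
      apply Nat.Coprime.prod_right
      intro p hp
      apply Nat.coprime_pow_primes _ _ q.2 p.2
      intro e
      exact hq ((Subtype.ext e : q = p) ▸ hp)
    have hc : ((L q).subgroupOf N).index.Coprime ((⨅ p ∈ T, L p).subgroupOf N).index :=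
      Nat.Coprime.of_dvd (relIndex_dvd_index_of_normal_right _ N)
        (relIndex_dvd_index_of_normal_right _ N) hc0
    obtain ⟨l, hl, d, hd, e⟩ := (Cfsg.Agent.S0007.result _ _ hc).2
      ⟨x₀ * g⁻¹, mul_mem hx₀N (inv_mem hgN)⟩
    have e' : x₀ * g⁻¹ = (l : G) * (d : G) := congrArg Subtype.val e
    rw [mem_subgroupOf] at hl hd
    refine ⟨d * g, mul_mem d.2 hgN, ?_⟩
    intro p hp
    rw [Finset.mem_insert] at hp
    rcases hp with rfl | hp
    · have : (d : G) * g = (l : G)⁻¹ * x₀ := by
        rw [eq_inv_mul_iff_mul_eq, ← mul_assoc, ← e']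
        group
      rw [this, map_mul, mul_smul, hx₀, Subgroup.conj_smul_eq_self_of_mem (inv_mem hl)]
    · rw [map_mul, mul_smul, hg p hp, conj_smul_eq_self_of_mem]
      exact (Subgroup.mem_iInf.1 ((Subgroup.mem_iInf.1 hd) p)) hp

theorem finite_primes_dvd (n : ℕ) (hn : n ≠ 0) : Set.Finite {p : Nat.Primes | (p : ℕ) ∣ n} := by
  apply Set.Finite.of_injOn (f := fun p : Nat.Primes => (p : ℕ)) (t := (n.divisors : Set ℕ))
  · intro p hp
    simp only [Finset.mem_coe, Nat.mem_divisors]
    exact ⟨hp, hn⟩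
  · intro p _ q _ h
    exact Subtype.ext h
  · exact Finset.finite_toSet _

theorem eq_top_of_isComplementSystem {G : Type*} [Group G] {K : Nat.Primes → Subgroup G}
    (hK : Cfsg.IsComplementSystem K) {p : Nat.Primes} (hp : ¬ (p : ℕ) ∣ Nat.card G) :
    K p = ⊤ := by
  have h1 := hK p
  rwa [Nat.factorization_eq_zero_of_not_dvd hp, pow_zero, Subgroup.index_eq_one] at h1

theorem conj_rel {G : Type*} [Group G] [Finite G] [Group.IsSolvable G]
    (K L : Nat.Primes → Subgroup G) (hK : Cfsg.IsComplementSystem K)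
    (hL : Cfsg.IsComplementSystem L) (N : Subgroup G) [N.Normal]
    (hN : ∀ p, K p ⊔ N = L p ⊔ N) : ∃ n ∈ N, ∀ p, MulAut.conj n • K p = L p := by
  classical
  obtain ⟨g, hgN, hg⟩ := conj_rel_finset K L hK hL N hN
    (finite_primes_dvd (Nat.card G) Nat.card_pos.ne').toFinset
  refine ⟨g, hgN, fun p => ?_⟩
  by_cases hp : (p : ℕ) ∣ Nat.card G
  · exact hg p (by simpa using hp)
  · rw [eq_top_of_isComplementSystem hK hp, eq_top_of_isComplementSystem hL hp]
    exact Subgroup.Normal.conj_smul_eq_self _ _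

theorem mem_systemNormalizer {G : Type*} [Group G] {K : Nat.Primes → Subgroup G} {x : G} :
    x ∈ Cfsg.systemNormalizer K ↔ ∀ p, x ∈ normalizer (K p : Set G) := by
  unfold Cfsg.systemNormalizer
  exact Subgroup.mem_iInf

theorem systemNormalizer_map {G : Type*} [Group G] [Finite G] [Group.IsSolvable G]
    (K : Nat.Primes → Subgroup G) (hK : Cfsg.IsComplementSystem K) (N : Subgroup G) [N.Normal] :
    Cfsg.systemNormalizer (fun p => (K p).map (QuotientGroup.mk' N)) =
      (Cfsg.systemNormalizer K).map (QuotientGroup.mk' N) := by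
  apply le_antisymm
  · intro y hy
    obtain ⟨x, rfl⟩ := QuotientGroup.mk'_surjective N y
    rw [mem_systemNormalizer] at hy
    have h1 : ∀ p, K p ⊔ N = MulAut.conj x • K p ⊔ N := by
      intro p
      have h2 : x ∈ (normalizer (((K p).map (QuotientGroup.mk' N) : Subgroup (G ⧸ N)) : Set (G ⧸ N))).comap
          (QuotientGroup.mk' N) := hy p
      rw [comap_normalizer_eq_of_surjective _ (QuotientGroup.mk'_surjective N), comap_map_eq,
        QuotientGroup.ker_mk', ← conj_smul_eq_iff_mem_normalizer, Subgroup.smul_sup,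
        Subgroup.Normal.conj_smul_eq_self x N] at h2
      exact h2.symm
    obtain ⟨n, hn, h3⟩ := conj_rel K _ hK (isComplementSystem_conj hK x) N h1
    refine ⟨n⁻¹ * x, ?_, ?_⟩
    · rw [SetLike.mem_coe, mem_systemNormalizer]
      intro p
      rw [← conj_smul_eq_iff_mem_normalizer, map_mul, mul_smul, ← h3 p, ← mul_smul, ← map_mul,
        inv_mul_cancel, map_one, one_smul]
    · have h4 : QuotientGroup.mk' N n = 1 := (QuotientGroup.eq_one_iff n).2 hn
      rw [map_mul, map_inv, h4, inv_one, one_mul]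
  · rintro _ ⟨x, hx, rfl⟩
    rw [SetLike.mem_coe, mem_systemNormalizer] at hx
    rw [mem_systemNormalizer]
    intro p
    exact le_normalizer_map _ (mem_map_of_mem _ (hx p))

end Cfsg.Agent.H4
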