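import Mathlib
import Cfsg.Prelude.Def_SolvableStructure
import Cfsg.Agent.H4.SysNorm2
import Cfsg.Agent.H4.SolvMin
import Cfsg.Agent.H4.MinNormal
import Cfsg.Agent.H4.Nilp

/-! System normalizers, part 3: covering and avoidance. -/

namespace Cfsg.Agent.H4

open Subgroup
open scoped Pointwise commutatorElement

theorem le_sup_of_coprime {G : Type*} [Group G] [Finite G] (R C X : Subgroup G) [R.Normal]
    {q k : ℕ} (hq : C.relIndex R = q ^ k) (hX : X.index.Coprime q) : R ≤ X ⊔ C := by
  rw [← relIndex_eq_one]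
  have h1 : (X ⊔ C).relIndex R ∣ X.index :=
    (relIndex_dvd_index_of_normal_right _ R).trans (index_dvd_of_le le_sup_left)
  have h2 : (X ⊔ C).relIndex R ∣ q ^ k := hq ▸ relIndex_dvd_of_le_left R le_sup_right
  exact Nat.eq_one_of_dvd_coprimes (hX.pow_right k) h1 h2

/-- A non-central minimal normal `p`-subgroup of a solvable group has no nontrivial element
centralized by a subgroup of `p`-power index. -/
theorem minimal_normal_inf_centralizer_eq_bot {G : Type*} [Group G] [Finite G]
    [Group.IsSolvable G] (N : Subgroup G) [hNn : N.Normal] (hN0 : N ≠ ⊥)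
    (hmin : ∀ K : Subgroup G, K.Normal → K ≤ N → K = ⊥ ∨ K = N) {p : ℕ} (hp : p.Prime)
    (hNp : IsPGroup p N) (hnc : ¬ N ≤ center G) (X : Subgroup G) (hX : ∃ k, X.index = p ^ k) :
    N ⊓ centralizer (X : Set G) = ⊥ := by
  have := Fact.mk hp
  have hCtop : centralizer (N : Set G) ≠ ⊤ := by
    intro e
    apply hnc
    intro n hn
    rw [mem_center_iff]
    intro g
    have hg : g ∈ centralizer (N : Set G) := e ▸ mem_top g
    exact ((mem_centralizer_iff.1 hg) n hn).symm
  have hCn : (centralizer (N : Set G)).Normal := inferInstance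
  generalize hC : centralizer (N : Set G) = C at hCtop hCn
  have : Nontrivial (G ⧸ C) := QuotientGroup.nontrivial_iff.2 hCtop
  obtain ⟨R', hR'n, hR'0, -, hR'min⟩ :=
    exists_minimal_normal_le (G := G ⧸ C) (D := ⊤) inferInstance top_ne_bot
  obtain ⟨-, q, hq, hR'q⟩ := minimal_normal_of_solvable R' hR'0 hR'min
  have := Fact.mk hq
  have hRn : (R'.comap (QuotientGroup.mk' C)).Normal := inferInstance
  have hCR : C ≤ R'.comap (QuotientGroup.mk' C) := by
    intro x hx
    rw [mem_comap]
    have : QuotientGroup.mk' C x = 1 := (QuotientGroup.eq_one_iff x).2 hx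
    rw [this]
    exact one_mem _
  have hRC : ¬ R'.comap (QuotientGroup.mk' C) ≤ C := by
    intro hle
    apply hR'0
    rw [← map_comap_eq_self_of_surjective (QuotientGroup.mk'_surjective C) R', Subgroup.map_eq_bot_iff,
      QuotientGroup.ker_mk']
    exact hle
  obtain ⟨k, hk⟩ := hR'q.exists_card_eq
  have hrel : C.relIndex (R'.comap (QuotientGroup.mk' C)) = q ^ k := by
    have h1 := card_comap_mk' C R'
    have h2 := card_mul_relIndex_of_le hCR
    rw [h1] at h2
    rw [← hk]
    exact Nat.eq_of_mul_eq_mul_left Nat.card_pos h2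
  generalize R'.comap (QuotientGroup.mk' C) = R at hRn hCR hRC hrel
  have key : ∀ Y : Subgroup G, R ≤ Y ⊔ C → N ⊓ centralizer (Y : Set G) = ⊥ := by
    intro Y hY
    by_contra hne
    have hle : N ⊓ centralizer (Y : Set G) ≤ N ⊓ centralizer (R : Set G) := by
      intro z hz
      refine ⟨hz.1, ?_⟩
      have h1 : Y ⊔ C ≤ centralizer ((zpowers z : Subgroup G) : Set G) := by
        apply sup_le
        · rw [le_centralizer_iff, zpowers_le]
          exact hz.2
        · rw [← hC]
          apply centralizer_le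
          intro w hw
          exact (zpowers_le.2 hz.1) hw
      have h2 := hY.trans h1
      rw [le_centralizer_iff, zpowers_le] at h2
      exact h2
    have hT : N ⊓ centralizer (R : Set G) = N := by
      rcases hmin (N ⊓ centralizer (R : Set G)) inferInstance inf_le_left with h | h
      · exact absurd (le_bot_iff.1 (h ▸ hle)) hne
      · exact h
    apply hRC
    rw [← hC, le_centralizer_iff]
    exact inf_eq_left.1 hT
  by_cases hqp : q = p
  · subst hqp
    exfalso
    obtain ⟨P⟩ : Nonempty (Sylow q G) := inferInstance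
    have h1 := key P (le_sup_of_coprime R C P hrel
      ((Nat.Prime.coprime_iff_not_dvd hq).2 P.not_dvd_index).symm)
    have hNP : N ≤ P := hNp.le_sylow_of_normal P
    have : Group.IsNilpotent (P : Subgroup G) := P.isPGroup'.isNilpotent
    have h2 : N.subgroupOf P ≠ ⊥ := by
      rw [Ne, subgroupOf_eq_bot, disjoint_iff, inf_eq_left.2 hNP]
      exact hN0
    have h3 := normal_inf_center_ne_bot (N.subgroupOf P) h2
    apply h3
    rw [eq_bot_iff]
    intro z hz
    have h4 : (z : G) ∈ N ⊓ centralizer ((P : Subgroup G) : Set G) := by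
      refine mem_inf.2 ⟨hz.1, ?_⟩
      rw [mem_centralizer_iff]
      intro y hy
      have := (mem_center_iff.1 hz.2) ⟨y, hy⟩
      exact congrArg Subtype.val this
    rw [h1, mem_bot] at h4
    rw [mem_bot]
    exact Subtype.ext h4
  · obtain ⟨j, hj⟩ := hX
    apply key X
    apply le_sup_of_coprime R C X hrel
    rw [hj]
    exact ((Nat.coprime_primes hp hq).2 (Ne.symm hqp)).pow_left j

theorem minimal_normal_inf_systemNormalizer {G : Type*} [Group G] [Finite G]
    [Group.IsSolvable G] (K : Nat.Primes → Subgroup G) (hK : Cfsg.IsComplementSystem K)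
    (N : Subgroup G) [hNn : N.Normal] (hN0 : N ≠ ⊥)
    (hmin : ∀ K : Subgroup G, K.Normal → K ≤ N → K = ⊥ ∨ K = N) (hnc : ¬ N ≤ center G) :
    N ⊓ Cfsg.systemNormalizer K = ⊥ := by
  obtain ⟨-, p, hp, hNp⟩ := minimal_normal_of_solvable N hN0 hmin
  have := Fact.mk hp
  have h1 := minimal_normal_inf_centralizer_eq_bot N hN0 hmin hp hNp hnc (K ⟨p, hp⟩)
    ⟨_, hK ⟨p, hp⟩⟩
  rw [eq_bot_iff, ← h1]
  intro x hx
  refine mem_inf.2 ⟨hx.1, ?_⟩
  have hdisj : N ⊓ K ⟨p, hp⟩ = ⊥ := by
    apply (disjoint_iff.1 (disjoint_of_coprime_natCard ?_))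
    obtain ⟨k, hk⟩ := hNp.exists_card_eq
    rw [hk]
    apply Nat.Coprime.pow_left
    exact (Nat.Prime.coprime_iff_not_dvd hp).2 (not_dvd_card_of_isComplementSystem hK ⟨p, hp⟩)
  rw [mem_centralizer_iff]
  intro y hy
  have hxn := (mem_systemNormalizer.1 hx.2) ⟨p, hp⟩
  have h2 : x * y * x⁻¹ * y⁻¹ ∈ N ⊓ K ⟨p, hp⟩ := by
    constructor
    · have : x * y * x⁻¹ * y⁻¹ = x * (y * x⁻¹ * y⁻¹) := by group
      rw [this]
      exact N.mul_mem hx.1 (hNn.conj_mem _ (N.inv_mem hx.1) y)
    · exact (K ⟨p, hp⟩).mul_mem (((mem_normalizer_iff.1 hxn) y).1 hy) ((K ⟨p, hp⟩).inv_mem hy)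
  rw [hdisj, mem_bot] at h2
  have : x * y = y * x := by
    have h3 : x * y * x⁻¹ * y⁻¹ * (y * x) = y * x := by rw [h2, one_mul]
    rw [← h3]
    group
  exact this.symm

theorem center_le_systemNormalizer {G : Type*} [Group G] (K : Nat.Primes → Subgroup G) :
    center G ≤ Cfsg.systemNormalizer K := by
  intro z hz
  rw [mem_systemNormalizer]
  intro p
  rw [mem_normalizer_iff]
  intro h
  rw [← (mem_center_iff.1 hz) h, mul_assoc, mul_inv_cancel, mul_one]

theorem cover_avoid {G : Type*} [Group G] [Finite G] [Group.IsSolvable G]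
    (K : Nat.Primes → Subgroup G) (hK : Cfsg.IsComplementSystem K) (A B : Subgroup G) [A.Normal]
    [hBn : B.Normal] (hAB : A < B)
    (hchief : ∀ N : Subgroup G, N.Normal → A ≤ N → N ≤ B → N = A ∨ N = B) :
    (⁅B, (⊤ : Subgroup G)⁆ ≤ A → B ≤ A ⊔ Cfsg.systemNormalizer K) ∧
      (¬ ⁅B, (⊤ : Subgroup G)⁆ ≤ A → B ⊓ Cfsg.systemNormalizer K ≤ A) := by
  have hs := QuotientGroup.mk'_surjective A
  have hmap := systemNormalizer_map K hK A
  have hcen : ⁅B, (⊤ : Subgroup G)⁆ ≤ A ↔ B.map (QuotientGroup.mk' A) ≤ center (G ⧸ A) := by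
    constructor
    · intro h
      rintro _ ⟨b, hb, rfl⟩
      rw [mem_center_iff]
      intro g
      obtain ⟨g, rfl⟩ := hs g
      have h1 := h (commutator_mem_commutator hb (mem_top g))
      rw [← map_mul, ← map_mul]
      apply (QuotientGroup.eq).2
      have : (g * b)⁻¹ * (b * g) = g⁻¹ * (b⁻¹ * ⁅b, g⁆ * b) * g := by
        rw [commutatorElement_def]
        group
      rw [this]
      have hA : A.Normal := inferInstance
      have h2 := hA.conj_mem _ (hA.conj_mem _ h1 b⁻¹) g⁻¹
      simpa using h2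
    · intro h
      rw [commutator_le]
      intro b hb g _
      have h1 := (mem_center_iff.1 (h (mem_map_of_mem _ hb))) (QuotientGroup.mk' A g)
      rw [← QuotientGroup.eq_one_iff]
      change QuotientGroup.mk' A ⁅b, g⁆ = 1
      rw [map_commutatorElement, commutatorElement_eq_one_iff_mul_comm]
      exact h1.symm
  constructor
  · intro h b hb
    have h1 := center_le_systemNormalizer (fun p => (K p).map (QuotientGroup.mk' A))
      ((hcen.1 h) (mem_map_of_mem _ hb))
    rw [hmap] at h1
    have h2 : b ∈ ((Cfsg.systemNormalizer K).map (QuotientGroup.mk' A)).comap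
      (QuotientGroup.mk' A) := h1
    rw [comap_map_eq, QuotientGroup.ker_mk', sup_comm] at h2
    exact h2
  · intro h x hx
    have hB0 : B.map (QuotientGroup.mk' A) ≠ ⊥ := by
      rw [Ne, Subgroup.map_eq_bot_iff, QuotientGroup.ker_mk']
      exact not_le_of_gt hAB
    have hBn' : (B.map (QuotientGroup.mk' A)).Normal := hBn.map _ hs
    have hmin : ∀ L : Subgroup (G ⧸ A), L.Normal → L ≤ B.map (QuotientGroup.mk' A) →
        L = ⊥ ∨ L = B.map (QuotientGroup.mk' A) := by
      intro L hL hLB
      have h1 : A ≤ L.comap (QuotientGroup.mk' A) := by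
        intro a ha
        rw [mem_comap]
        have : QuotientGroup.mk' A a = 1 := (QuotientGroup.eq_one_iff a).2 ha
        rw [this]
        exact one_mem _
      have h2 : L.comap (QuotientGroup.mk' A) ≤ B := by
        have := comap_mono (f := QuotientGroup.mk' A) hLB
        rwa [comap_map_eq, QuotientGroup.ker_mk', sup_eq_left.2 hAB.le] at this
      rcases hchief _ (hL.comap _) h1 h2 with h3 | h3
      · left
        rw [← map_comap_eq_self_of_surjective hs L, h3, Subgroup.map_eq_bot_iff, QuotientGroup.ker_mk']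
      · right
        rw [← map_comap_eq_self_of_surjective hs L, h3]
    have h1 := minimal_normal_inf_systemNormalizer _ (isComplementSystem_map hK A)
      (B.map (QuotientGroup.mk' A)) hB0 hmin (fun hc => h (hcen.2 hc))
    have h2 : QuotientGroup.mk' A x ∈ B.map (QuotientGroup.mk' A) ⊓
        Cfsg.systemNormalizer (fun p => (K p).map (QuotientGroup.mk' A)) := by
      refine ⟨mem_map_of_mem _ hx.1, ?_⟩
      rw [hmap]
      exact mem_map_of_mem _ hx.2
    rw [h1, mem_bot] at h2
    exact (QuotientGroup.eq_one_iff x).1 h2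

end Cfsg.Agent.H4
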