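import Mathlib
import Cfsg.Agent.H4.SysNorm3
import Cfsg.Agent.Lib.Helper22.Carter3
import Cfsg.Agent.H1.Hall
import Cfsg.Agent.Tr.MinNonPNil

/-! Carter subgroups versus system normalizers. -/

set_option autoImplicit false

namespace Cfsg.Agent.H4.CarterSys

open Subgroup Cfsg.Agent.Lib.Helper22 Cfsg.Agent.H4
open scoped Pointwise
open Cfsg.H1 (mem_conj_smul_iff conj_mul_smul card_conj_smul)

universe u

/-- the complement system `K` reduces into `C`: all `p'`-elements of `C` lie in `K p`. -/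
def Red {G : Type u} [Group G] (K : Nat.Primes → Subgroup G) (C : Subgroup G) : Prop :=
  ∀ p : Nat.Primes, ∀ x ∈ C, (orderOf x).Coprime p → x ∈ K p

theorem properConj (G : Type u) [Group G] [Finite G] [Group.IsSolvable G] : ProperConj G :=
  fun _ _ C D hC hD => carter_conj C D hC hD

theorem orderOf_conj' {G : Type u} [Group G] (g x : G) : orderOf (g * x * g⁻¹) = orderOf x :=
  (MulAut.conj g).orderOf_eq x

theorem Red.map {G : Type u} [Group G] [Finite G] {K : Nat.Primes → Subgroup G} {C : Subgroup G}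
    (h : Red K C) (N : Subgroup G) [N.Normal] :
    Red (fun p => (K p).map (QuotientGroup.mk' N)) (C.map (QuotientGroup.mk' N)) := by
  rintro p _ ⟨c, hc, rfl⟩ hy
  obtain ⟨a, m, hm, hcm⟩ := Nat.exists_eq_pow_mul_and_not_dvd (n := orderOf c) (orderOf_pos c).ne' p
    p.2.ne_one
  obtain ⟨v, hv⟩ := exists_pow_eq_self_of_coprime (x := QuotientGroup.mk' N c) (n := (p : ℕ) ^ a)
    (hy.symm.pow_left a)
  refine ⟨(c ^ (p : ℕ) ^ a) ^ v, h p _ (pow_mem (pow_mem hc _) _) ?_, by rw [map_pow, map_pow, hv]⟩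
  have h1 : ((c ^ (p : ℕ) ^ a) ^ v) ^ m = 1 := by
    rw [← pow_mul, ← pow_mul, show (p : ℕ) ^ a * (v * m) = (p : ℕ) ^ a * m * v by ring, ← hcm, pow_mul,
      pow_orderOf_eq_one, one_pow]
  exact Nat.Coprime.coprime_dvd_left (orderOf_dvd_of_pow_eq_one h1)
    ((Nat.Prime.coprime_iff_not_dvd p.2).2 hm).symm

theorem Red.relIndex_eq_pow {G : Type u} [Group G] [Finite G] {K : Nat.Primes → Subgroup G}
    {C : Subgroup G} (h : Red K C) (p : Nat.Primes) : ∃ a, (K p).relIndex C = (p : ℕ) ^ a := by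
  refine ⟨_, Nat.eq_prime_pow_of_unique_prime_dvd ?_ ?_⟩
  · exact Subgroup.index_ne_zero_of_finite
  · intro q hq hqd
    by_contra hne
    have := Fact.mk hq
    obtain ⟨Q⟩ : Nonempty (Sylow q C) := inferInstance
    have h1 : (Q : Subgroup C).map C.subtype ≤ K p := by
      rintro _ ⟨x, hx, rfl⟩
      apply h p _ x.2
      obtain ⟨k, hk⟩ := (IsPGroup.iff_orderOf.mp Q.2) ⟨x, hx⟩
      rw [Subgroup.orderOf_mk] at hk
      rw [Subgroup.orderOf_coe, hk]
      exact ((Nat.coprime_primes hq p.2).2 hne).pow_left k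
    have h2 : (K p).relIndex C ∣ ((Q : Subgroup C).map C.subtype).relIndex C :=
      relIndex_dvd_of_le_left C h1
    have h3 : ((Q : Subgroup C).map C.subtype).relIndex C = (Q : Subgroup C).index := by
      rw [relIndex, subgroupOf, comap_map_eq_self_of_injective C.subtype_injective]
    exact Q.not_dvd_index (h3 ▸ hqd.trans h2)

theorem normal_le_complement {G : Type u} [Group G] [Finite G] {K : Nat.Primes → Subgroup G}
    (hK : Cfsg.IsComplementSystem K) (N : Subgroup G) [N.Normal] {r : ℕ} (hr : r.Prime)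
    (hN : IsPGroup r N) (p : Nat.Primes) (hpr : (p : ℕ) ≠ r) : N ≤ K p := by
  have := Fact.mk hr
  rw [← relIndex_eq_one]
  have h1 : (K p).relIndex N ∣ (K p).index := relIndex_dvd_index_of_normal_right _ N
  rw [hK p] at h1
  have h2 : (K p).relIndex N ∣ Nat.card N := relIndex_dvd_card _ _
  obtain ⟨b, hb⟩ := IsPGroup.iff_card.mp hN
  rw [hb] at h2
  exact Nat.eq_one_of_dvd_coprimes
    (((Nat.coprime_primes p.2 hr).2 hpr).pow _ _) h1 h2

theorem relIndex_sup_of_le {G : Type u} [Group G] (A C N : Subgroup G) [N.Normal] (h : N ≤ A) :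
    A.relIndex (C ⊔ N) = A.relIndex C := by
  have h1 : A = (A.map (QuotientGroup.mk' N)).comap (QuotientGroup.mk' N) := by
    rw [comap_map_eq, QuotientGroup.ker_mk', sup_eq_left.2 h]
  rw [h1, relIndex_comap, relIndex_comap, Subgroup.map_sup, QuotientGroup.map_mk'_self, sup_bot_eq]

theorem relIndex_normal_pow {G : Type u} [Group G] [Finite G] (C N : Subgroup G) [N.Normal] {r : ℕ}
    (hr : r.Prime) (hN : IsPGroup r N) : ∃ b, C.relIndex (C ⊔ N) = r ^ b := by
  have := Fact.mk hr
  rw [relIndex_sup_normal]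
  obtain ⟨b, hb⟩ := IsPGroup.iff_card.mp hN
  have h2 : C.relIndex N ∣ Nat.card N := relIndex_dvd_card _ _
  rw [hb] at h2
  obtain ⟨j, -, hj⟩ := (Nat.dvd_prime_pow hr).1 h2
  exact ⟨j, hj⟩

theorem coprime_orderOf_of_mem {G : Type u} [Group G] [Finite G] {K : Nat.Primes → Subgroup G}
    (hK : Cfsg.IsComplementSystem K) (p : Nat.Primes) {x : G} (hx : x ∈ K p) :
    (orderOf x).Coprime p := by
  have h1 : orderOf x ∣ Nat.card (K p) := by
    have := orderOf_dvd_natCard (⟨x, hx⟩ : K p)
    rwa [Subgroup.orderOf_mk] at this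
  exact Nat.Coprime.coprime_dvd_left h1
    ((Nat.Prime.coprime_iff_not_dvd p.2).2 (not_dvd_card_of_isComplementSystem hK p)).symm

theorem Red.subgroupOf {G : Type u} [Group G] {K : Nat.Primes → Subgroup G} {C : Subgroup G}
    (h : Red K C) (H : Subgroup G) : Red (fun p => (K p).subgroupOf H) (C.subgroupOf H) := by
  intro p x hx hcop
  rw [mem_subgroupOf] at hx ⊢
  exact h p _ hx (by rwa [Subgroup.orderOf_coe])

/-- a complement system reducing into `C` induces a complement system on `C ⊔ N`. -/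
theorem isComplementSystem_subgroupOf {G : Type u} [Group G] [Finite G]
    {K : Nat.Primes → Subgroup G} (hK : Cfsg.IsComplementSystem K) {C : Subgroup G} (hR : Red K C)
    (N : Subgroup G) [N.Normal] {r : ℕ} (hr : r.Prime) (hN : IsPGroup r N) :
    Cfsg.IsComplementSystem (fun p => (K p).subgroupOf (C ⊔ N)) := by
  intro p
  have hb : ∃ b, (K p).relIndex (C ⊔ N) = (p : ℕ) ^ b := by
    by_cases hpr : (p : ℕ) = r
    · obtain ⟨a, ha⟩ := hR.relIndex_eq_pow p
      obtain ⟨b, hb⟩ := relIndex_normal_pow C N hr hN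
      have h1 : (K p).relIndex (C ⊔ N) ∣ (K p ⊓ C).relIndex (C ⊔ N) :=
        relIndex_dvd_of_le_left _ inf_le_left
      rw [← relIndex_mul_relIndex (K p ⊓ C) C (C ⊔ N) inf_le_right le_sup_left, inf_relIndex_right,
        ha, hb, ← hpr, ← pow_add] at h1
      obtain ⟨j, -, hj⟩ := (Nat.dvd_prime_pow p.2).1 h1
      exact ⟨j, hj⟩
    · rw [relIndex_sup_of_le _ _ _ (normal_le_complement hK N hr hN p hpr)]
      exact hR.relIndex_eq_pow p
  obtain ⟨b, hb⟩ := hb
  have h2 : ¬ (p : ℕ) ∣ Nat.card ((K p).subgroupOf (C ⊔ N)) := by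
    intro hd
    apply not_dvd_card_of_isComplementSystem hK p
    refine hd.trans ?_
    rw [← Subgroup.card_map_of_injective (Subgroup.subtype_injective _), subgroupOf_map_subtype]
    exact Subgroup.card_dvd_of_le inf_le_left
  change ((K p).subgroupOf (C ⊔ N)).index = _
  rw [factorization_of_index _ p.2 h2 hb]
  exact hb

/-- A complement system reduces into at most one Carter subgroup. -/
theorem eq_of_red (n : ℕ) : ∀ (G : Type u) [Group G] [Finite G] [Group.IsSolvable G],
    Nat.card G ≤ n → ∀ K : Nat.Primes → Subgroup G, Cfsg.IsComplementSystem K →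
    ∀ C D : Subgroup G, IsCarter C → IsCarter D → Red K C → Red K D → C = D := by
  induction n with
  | zero =>
    intro G _ _ _ h
    exact absurd h (by have := Nat.card_pos (α := G); omega)
  | succ n ih =>
    intro G _ _ _ hn K hK C D hC hD hRC hRD
    by_cases htriv : (⊤ : Subgroup G) = ⊥
    · have : Subsingleton (Subgroup G) := subsingleton_of_bot_eq_top htriv.symm
      exact Subsingleton.elim _ _
    obtain ⟨N, hN, hN0, -, hmin⟩ :=
      exists_minimal_normal_le (D := (⊤ : Subgroup G)) inferInstance htriv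
    have := hN
    obtain ⟨hNc, r, hr, hNr⟩ := minimal_normal_of_solvable N hN0 hmin
    have := Fact.mk hr
    have hconj : ProperConj G := properConj G
    have h1 : C.map (QuotientGroup.mk' N) = D.map (QuotientGroup.mk' N) :=
      ih (G ⧸ N) (by have := card_quotient_lt_of_ne_bot hN0; omega) _ (isComplementSystem_map hK N)
        _ _ (hC.map_mk' hconj N) (hD.map_mk' hconj N) (hRC.map N) (hRD.map N)
    have h2 : C ⊔ N = D ⊔ N := by
      have := congrArg (Subgroup.comap (QuotientGroup.mk' N)) h1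
      rwa [comap_map_eq, comap_map_eq, QuotientGroup.ker_mk'] at this
    by_cases hcen : N ≤ center G
    · have hle : ∀ E : Subgroup G, IsCarter E → N ≤ E := by
        intro E hE x hx
        rw [← hE.2]
        rw [mem_normalizer_iff]
        intro y
        rw [← (mem_center_iff.1 (hcen hx)) y, mul_assoc, mul_inv_cancel, mul_one]
      rw [← sup_eq_left.2 (hle C hC), h2, sup_eq_left.2 (hle D hD)]
    by_cases hH : C ⊔ N = ⊤
    · obtain ⟨g, hg⟩ := carter_conj C D hC hD
      have hg' : g ∈ N ⊔ C := by rw [sup_comm, hH]; trivial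
      obtain ⟨m, hm, c, hc, rfl⟩ := mem_sup_of_normal_left.1 hg'
      rw [conj_mul_smul, conj_smul_eq_of_mem_normalizer (le_normalizer hc)] at hg
      set rp : Nat.Primes := ⟨r, hr⟩ with hrp
      have hbot : K rp ⊓ N = ⊥ := by
        apply (Subgroup.disjoint_of_coprime_natCard ?_).eq_bot
        obtain ⟨b, hb⟩ := IsPGroup.iff_card.mp hNr
        rw [hb]
        exact (((Nat.Prime.coprime_iff_not_dvd hr).2
          (not_dvd_card_of_isComplementSystem hK rp)).symm).pow_right b
      have hcent : m ∈ centralizer ((K rp ⊓ C : Subgroup G) : Set G) := by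
        rw [mem_centralizer_iff]
        intro x hx
        obtain ⟨hx1, hx2⟩ := Subgroup.mem_inf.1 hx
        have hxo := coprime_orderOf_of_mem hK rp hx1
        have hy : m * x * m⁻¹ ∈ D := by
          rw [← hg, mem_conj_smul_iff]
          have : m⁻¹ * (m * x * m⁻¹) * m = x := by group
          rw [this]; exact hx2
        have hyK : m * x * m⁻¹ ∈ K rp := hRD rp _ hy (by rw [orderOf_conj']; exact hxo)
        have h3 : m * x * m⁻¹ * x⁻¹ ∈ K rp ⊓ N := by
          refine Subgroup.mem_inf.2 ⟨(K rp).mul_mem hyK ((K rp).inv_mem hx1), ?_⟩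
          have h4 : m * x * m⁻¹ * x⁻¹ = m * (x * m⁻¹ * x⁻¹) := by group
          rw [h4]
          exact mul_mem hm (hN.conj_mem _ (inv_mem hm) x)
        rw [hbot, mem_bot] at h3
        calc x * m = (m * x * m⁻¹ * x⁻¹)⁻¹ * (m * x) := by group
          _ = m * x := by rw [h3]; simp
      have hidx : ∃ k, (K rp ⊓ C).index = r ^ k := by
        obtain ⟨a, ha⟩ := hRC.relIndex_eq_pow rp
        obtain ⟨b, hb⟩ := relIndex_normal_pow C N hr hNr
        rw [hH, relIndex_top_right] at hb
        refine ⟨a + b, ?_⟩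
        rw [← relIndex_mul_index (inf_le_right : K rp ⊓ C ≤ C), inf_relIndex_right, ha, hb, pow_add]
      have h5 := minimal_normal_inf_centralizer_eq_bot N hN0 hmin hr hNr hcen (K rp ⊓ C) hidx
      have h6 : m ∈ N ⊓ centralizer ((K rp ⊓ C : Subgroup G) : Set G) := ⟨hm, hcent⟩
      rw [h5, mem_bot] at h6
      rw [← hg, h6, map_one, one_smul]
    · have hCH : C ≤ C ⊔ N := le_sup_left
      have hDH : D ≤ C ⊔ N := h2 ▸ le_sup_left
      have h3 := ih (C ⊔ N : Subgroup G) (by have := card_subgroup_lt_of_ne_top hH; omega) _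
        (isComplementSystem_subgroupOf hK hRC N hr hNr) (C.subgroupOf (C ⊔ N)) (D.subgroupOf (C ⊔ N))
        (hC.subgroupOf hCH) (hD.subgroupOf hDH) (hRC.subgroupOf _) (hRD.subgroupOf _)
      have h4 := congrArg (Subgroup.map (C ⊔ N).subtype) h3
      rwa [subgroupOf_map_subtype, subgroupOf_map_subtype, inf_eq_left.2 hCH, inf_eq_left.2 hDH] at h4

end Cfsg.Agent.H4.CarterSys
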