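import Mathlib
import Cfsg.Agent.H4.CarterSys

/-! Carter subgroups versus system normalizers, part 2. -/

set_option autoImplicit false

namespace Cfsg.Agent.H4.CarterSys

open Subgroup Cfsg.Agent.Lib.Helper22 Cfsg.Agent.H4
open scoped Pointwise
open Cfsg.H1 (mem_conj_smul_iff conj_mul_smul card_conj_smul)

universe u

theorem exists_red {G : Type u} [Group G] [Finite G] [Group.IsSolvable G] (C : Subgroup G)
    (hC : Group.IsNilpotent C) :
    ∃ K : Nat.Primes → Subgroup G, Cfsg.IsComplementSystem K ∧ Red K C := by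
  have key : ∀ p : Nat.Primes, ∃ Kp : Subgroup G,
      Kp.index = (p : ℕ) ^ (Nat.card G).factorization p ∧
        ∀ x ∈ C, (orderOf x).Coprime p → x ∈ Kp := by
    intro p
    have := Fact.mk p.2
    obtain ⟨P, T, hTn, hTP⟩ := Cfsg.Agent.Tr.hasNormalPComplement_of_isNilpotent (p := p) hC
    have hidx : T.index = Nat.card P := hTP.symm.index_eq_card
    have hPc : Nat.card P = (p : ℕ) ^ (Nat.card C).factorization p := P.card_eq_multiplicity
    have hTcop : ¬ (p : ℕ) ∣ Nat.card T := by
      intro hd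
      have h1 := T.card_mul_index
      rw [hidx, hPc] at h1
      have h2 : (p : ℕ) ^ ((Nat.card C).factorization p + 1) ∣ Nat.card C := by
        have h3 : (p : ℕ) ^ ((Nat.card C).factorization p + 1) ∣
            Nat.card T * (p : ℕ) ^ (Nat.card C).factorization p := by
          rw [pow_succ, mul_comm]
          exact mul_dvd_mul_right hd _
        rwa [h1] at h3
      exact Nat.pow_succ_factorization_not_dvd Nat.card_pos.ne' p.2 h2
    have hne : Nat.card G ≠ 0 := Nat.card_pos.ne'
    have hmul : Nat.card G = Nat.card G / (p : ℕ) ^ (Nat.card G).factorization p *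
        (p : ℕ) ^ (Nat.card G).factorization p := by
      rw [mul_comm]; exact (Nat.ordProj_mul_ordCompl_eq_self _ _).symm
    obtain ⟨H, hH, hTH⟩ := Cfsg.H1.hall_dom_aux (Nat.card G) G le_rfl
      (Nat.card G / (p : ℕ) ^ (Nat.card G).factorization p) ((p : ℕ) ^ (Nat.card G).factorization p)
      hmul ((Nat.coprime_ordCompl p.2 hne).symm.pow_right _) (T.map C.subtype) (by
        rw [Subgroup.card_map_of_injective C.subtype_injective]
        exact (((Nat.Prime.coprime_iff_not_dvd p.2).2 hTcop).symm).pow_right _)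
    refine ⟨H, ?_, ?_⟩
    · have h1 := H.card_mul_index
      rw [hH] at h1
      have hpos : 0 < Nat.card G / (p : ℕ) ^ (Nat.card G).factorization p := by
        rcases Nat.eq_zero_or_pos (Nat.card G / (p : ℕ) ^ (Nat.card G).factorization p) with h | h
        · rw [h, zero_mul] at hmul; exact absurd hmul hne
        · exact h
      exact Nat.eq_of_mul_eq_mul_left hpos (h1.trans hmul)
    · intro x hx hcop
      apply hTH
      refine ⟨⟨x, hx⟩, ?_, rfl⟩
      have h1 : orderOf (QuotientGroup.mk' T ⟨x, hx⟩) ∣ orderOf x := by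
        have := orderOf_map_dvd (QuotientGroup.mk' T) (⟨x, hx⟩ : C)
        rwa [Subgroup.orderOf_mk] at this
      have h2 : orderOf (QuotientGroup.mk' T ⟨x, hx⟩) ∣ (p : ℕ) ^ (Nat.card C).factorization p := by
        rw [← hPc, ← hidx, Subgroup.index_eq_card]
        exact orderOf_dvd_natCard _
      have h3 : orderOf (QuotientGroup.mk' T ⟨x, hx⟩) = 1 :=
        Nat.eq_one_of_dvd_coprimes (hcop.pow_right _) h1 h2
      rw [orderOf_eq_one_iff] at h3
      exact (QuotientGroup.eq_one_iff _).1 h3
  choose K hK1 hK2 using key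
  exact ⟨K, hK1, hK2⟩

theorem systemNormalizer_le_of_red {G : Type u} [Group G] [Finite G] [Group.IsSolvable G]
    {K : Nat.Primes → Subgroup G} (hK : Cfsg.IsComplementSystem K) {C : Subgroup G}
    (hC : IsCarter C) (hR : Red K C) : Cfsg.systemNormalizer K ≤ C := by
  intro x hx
  have h1 : Red K (MulAut.conj x • C) := by
    intro p y hy hcop
    rw [mem_conj_smul_iff] at hy
    have h2 := hR p _ hy (by
      have := orderOf_conj' x⁻¹ y
      rw [inv_inv] at this
      rw [this]; exact hcop)
    have h3 := (mem_systemNormalizer.1 hx) p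
    have h4 := (mem_normalizer_iff.1 h3 _).1 h2
    have h5 : x * (x⁻¹ * y * x) * x⁻¹ = y := by group
    rwa [h5] at h4
  have h2 := eq_of_red _ G le_rfl K hK _ _ (hC.conj x) hC h1 hR
  rw [← hC.2]
  exact mem_normalizer_of_conj_smul_eq h2

theorem exists_carter_red {G : Type u} [Group G] [Finite G] [Group.IsSolvable G]
    {K : Nat.Primes → Subgroup G} (hK : Cfsg.IsComplementSystem K) :
    ∃ C : Subgroup G, IsCarter C ∧ Red K C := by
  obtain ⟨C₀, hC₀⟩ := carter_exists G
  obtain ⟨K₀, hK₀, hR₀⟩ := exists_red C₀ hC₀.1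
  obtain ⟨g, -, hg⟩ := conj_rel K₀ K hK₀ hK ⊤ (fun p => by simp)
  refine ⟨MulAut.conj g • C₀, hC₀.conj g, ?_⟩
  intro p y hy hcop
  rw [mem_conj_smul_iff] at hy
  rw [← hg p, mem_conj_smul_iff]
  apply hR₀ p _ hy
  have := orderOf_conj' g⁻¹ y
  rw [inv_inv] at this
  rw [this]; exact hcop

end Cfsg.Agent.H4.CarterSys
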