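import Mathlib
import Cfsg.Agent.H4.CarterSys2

/-! Carter subgroups versus system normalizers, part 3: nilpotent-by-nilpotent groups. -/

set_option autoImplicit false

namespace Cfsg.Agent.H4.CarterSys

open Subgroup Cfsg.Agent.Lib.Helper22 Cfsg.Agent.H4
open scoped Pointwise

universe u

/-- a non-central minimal normal subgroup of a nilpotent-by-nilpotent group avoids Carter subgroups -/
theorem carter_inf_minimal_normal {G : Type u} [Group G] [Finite G] [Group.IsSolvable G]
    (F : Subgroup G) [hFn : F.Normal] (hF : Group.IsNilpotent F) (hGF : Group.IsNilpotent (G ⧸ F))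
    {C : Subgroup G} (hC : IsCarter C) (N : Subgroup G) [hN : N.Normal] (hN0 : N ≠ ⊥)
    (hmin : ∀ K : Subgroup G, K.Normal → K ≤ N → K = ⊥ ∨ K = N) (hcen : ¬ N ≤ center G) :
    C ⊓ N = ⊥ := by
  have hFc : F ≤ centralizer (N : Set G) := nilpotent_normal_le_centralizer_minimal_normal N hmin F
  have hCF : C ⊔ F = ⊤ := by
    have h1 := hC.map_eq_top (properConj G) (QuotientGroup.mk' F) (QuotientGroup.mk'_surjective F)
    have h2 := congrArg (Subgroup.comap (QuotientGroup.mk' F)) h1
    rwa [comap_map_eq, QuotientGroup.ker_mk', comap_top] at h2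
  have hnorm : (C ⊓ N).Normal := by
    rw [← normalizer_eq_top_iff, eq_top_iff, ← hCF]
    apply sup_le
    · intro c hc
      rw [mem_normalizer_iff]
      intro x
      rw [Subgroup.mem_inf, Subgroup.mem_inf]
      constructor
      · rintro ⟨h1, h2⟩
        exact ⟨C.mul_mem (C.mul_mem hc h1) (C.inv_mem hc), hN.conj_mem x h2 c⟩
      · rintro ⟨h1, h2⟩
        have e : c⁻¹ * (c * x * c⁻¹) * c⁻¹⁻¹ = x := by group
        refine ⟨?_, ?_⟩
        · have := C.mul_mem (C.mul_mem (C.inv_mem hc) h1) (C.inv_mem (C.inv_mem hc))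
          rwa [e] at this
        · have := hN.conj_mem _ h2 c⁻¹
          rwa [e] at this
    · intro f hf
      have hcomm : ∀ x ∈ N, f * x * f⁻¹ = x := by
        intro x hx
        have := mem_centralizer_iff.1 (hFc hf) x hx
        rw [← this]; group
      rw [mem_normalizer_iff]
      intro x
      rw [Subgroup.mem_inf, Subgroup.mem_inf]
      constructor
      · rintro ⟨h1, h2⟩
        rw [hcomm x h2]; exact ⟨h1, h2⟩
      · rintro ⟨h1, h2⟩
        have e : f⁻¹ * (f * x * f⁻¹) * f⁻¹⁻¹ = x := by group
        have hx : x ∈ N := by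
          have := hN.conj_mem _ h2 f⁻¹
          rwa [e] at this
        rw [hcomm x hx] at h1
        exact ⟨h1, hx⟩
  rcases hmin _ hnorm inf_le_right with h | h
  · exact h
  exfalso
  have hNC : N ≤ C := inf_eq_right.1 h
  have := hC.1
  have h1 : N.subgroupOf C ≠ ⊥ := by
    intro h0
    rw [subgroupOf_eq_bot, disjoint_iff, inf_eq_left.mpr hNC] at h0
    exact hN0 h0
  have h2 := normal_inf_center_ne_bot (N.subgroupOf C) h1
  obtain ⟨⟨z, hz⟩, hz1'⟩ := Subgroup.ne_bot_iff_exists_ne_one.mp h2
  obtain ⟨hzN, hzc⟩ := Subgroup.mem_inf.1 hz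
  have hz1 : (z : G) ≠ 1 := fun h => hz1' (Subtype.ext (Subtype.ext h))
  have hzN' : (z : G) ∈ N := mem_subgroupOf.1 hzN
  have hzG : (z : G) ∈ center G := by
    have h3 : C ⊔ F ≤ centralizer ({(z : G)} : Set G) := by
      apply sup_le
      · intro c hc
        rw [mem_centralizer_singleton_iff]
        have := (mem_center_iff.1 hzc) ⟨c, hc⟩
        exact congrArg Subtype.val this
      · intro f hf
        rw [mem_centralizer_singleton_iff]
        exact (mem_centralizer_iff.1 (hFc hf) z hzN').symm
    rw [hCF] at h3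
    rw [mem_center_iff]
    intro y
    exact mem_centralizer_singleton_iff.1 (h3 (mem_top y))
  rcases hmin (N ⊓ center G) inferInstance inf_le_left with h4 | h4
  · have : (z : G) ∈ N ⊓ center G := ⟨hzN', hzG⟩
    rw [h4, mem_bot] at this
    exact hz1 this
  · exact hcen (inf_eq_left.1 h4)

theorem le_systemNormalizer_aux (n : ℕ) : ∀ (G : Type u) [Group G] [Finite G] [Group.IsSolvable G],
    Nat.card G ≤ n → ∀ (F : Subgroup G) [F.Normal], Group.IsNilpotent F →
    Group.IsNilpotent (G ⧸ F) → ∀ K : Nat.Primes → Subgroup G, Cfsg.IsComplementSystem K →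
    ∀ C : Subgroup G, IsCarter C → Cfsg.systemNormalizer K ≤ C → C ≤ Cfsg.systemNormalizer K := by
  induction n with
  | zero =>
    intro G _ _ _ h
    exact absurd h (by have := Nat.card_pos (α := G); omega)
  | succ n ih =>
    intro G _ _ _ hn F hFn hF hGF K hK C hC hle
    by_cases htriv : (⊤ : Subgroup G) = ⊥
    · have : Subsingleton (Subgroup G) := subsingleton_of_bot_eq_top htriv.symm
      exact (Subsingleton.elim _ _).le
    obtain ⟨N, hN, hN0, -, hmin⟩ :=
      exists_minimal_normal_le (D := (⊤ : Subgroup G)) inferInstance htriv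
    have := hN
    have hs := QuotientGroup.mk'_surjective N
    have hFn' : (F.map (QuotientGroup.mk' N)).Normal := hFn.map _ hs
    have hF' : Group.IsNilpotent (F.map (QuotientGroup.mk' N)) :=
      Group.nilpotent_of_surjective _ ((QuotientGroup.mk' N).subgroupMap_surjective F)
    have hGF' : Group.IsNilpotent ((G ⧸ N) ⧸ F.map (QuotientGroup.mk' N)) := by
      apply Group.nilpotent_of_surjective
        (QuotientGroup.map F (F.map (QuotientGroup.mk' N)) (QuotientGroup.mk' N) (le_comap_map _ _))
      intro y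
      obtain ⟨y', rfl⟩ := QuotientGroup.mk'_surjective _ y
      obtain ⟨x, rfl⟩ := hs y'
      exact ⟨QuotientGroup.mk' F x, rfl⟩
    have h1 := ih (G ⧸ N) (by have := card_quotient_lt_of_ne_bot hN0; omega)
      (F.map (QuotientGroup.mk' N)) hF' hGF' _ (isComplementSystem_map hK N) _
      (hC.map_mk' (properConj G) N) (by rw [systemNormalizer_map K hK N]; exact map_mono hle)
    rw [systemNormalizer_map K hK N] at h1
    have h2 : C ≤ Cfsg.systemNormalizer K ⊔ N := by
      have := comap_mono (f := QuotientGroup.mk' N) h1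
      rw [comap_map_eq, comap_map_eq, QuotientGroup.ker_mk'] at this
      exact le_sup_left.trans this
    by_cases hcen : N ≤ center G
    · rwa [sup_eq_left.2 (hcen.trans (center_le_systemNormalizer K))] at h2
    · have h3 := carter_inf_minimal_normal F hF hGF hC N hN0 hmin hcen
      intro c hc
      obtain ⟨d, hd, m, hm, rfl⟩ := mem_sup_of_normal_right.1 (h2 hc)
      have h4 : m ∈ C ⊓ N := by
        refine Subgroup.mem_inf.2 ⟨?_, hm⟩
        have := C.mul_mem (C.inv_mem (hle hd)) hc
        rwa [inv_mul_cancel_left] at this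
      rw [h3, mem_bot] at h4
      rw [h4, mul_one]
      exact hd

end Cfsg.Agent.H4.CarterSys
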