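import Mathlib
import Cfsg.Agent.S0572
import Cfsg.Agent.H4.SolvMin
import Cfsg.Agent.H4.MinNormal
import Cfsg.Agent.H4.Factor

set_option autoImplicit false

/-! # Itô: a product of two abelian groups has a normal subgroup inside one of the factors. -/

namespace Cfsg.Agent.H4

open Subgroup
open scoped Pointwise commutatorElement

section

variable {G : Type*} [Group G] [Finite G] (A B M : Subgroup G)

/-- The counting step.  `A` and `B` play symmetric roles. -/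
theorem ito_count_step
    (hdich : ∀ g : G, (∀ m ∈ M, g * m = m * g) ∨ (∀ m ∈ M, g * m = m * g → m = 1))
    (m₀ : G) (hm₀ : m₀ ∈ M) (hm₀1 : m₀ ≠ 1)
    (a : G) (ha : a ∈ A) (haf : ∀ m ∈ M, a * m = m * a → m = 1)
    (hMn : M.Normal)
    (hinv : ∀ a ∈ A, ∀ b ∈ B, ∃ a' ∈ A, a' * m₀ * a'⁻¹ * m₀⁻¹ = b * (a * m₀ * a⁻¹ * m₀⁻¹) * b⁻¹) :
    Nat.card {z : G | ∃ b ∈ B, z = b * m₀ * b⁻¹ * m₀⁻¹} + 1 ≤
      Nat.card {z : G | ∃ a ∈ A, z = a * m₀ * a⁻¹ * m₀⁻¹} := by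
  classical
  set SA : Set G := {z : G | ∃ a ∈ A, z = a * m₀ * a⁻¹ * m₀⁻¹} with hSA
  set SB : Set G := {z : G | ∃ b ∈ B, z = b * m₀ * b⁻¹ * m₀⁻¹} with hSB
  set s := a * m₀ * a⁻¹ * m₀⁻¹ with hs
  have hsM : s ∈ M := M.mul_mem (hMn.conj_mem m₀ hm₀ a) (M.inv_mem hm₀)
  have hs1 : s ≠ 1 := by
    intro h
    apply hm₀1
    apply haf m₀ hm₀
    have : a * m₀ = s * m₀ * a := by rw [hs]; group
    rw [this, h, one_mul]
  choose f hfB hf using fun z : SB => z.2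
  have hmem : ∀ z : SB, f z * s * (f z)⁻¹ ∈ SA \ {1} := by
    intro z
    obtain ⟨a', ha', h⟩ := hinv a ha (f z) (hfB z)
    refine ⟨⟨a', ha', h.symm⟩, ?_⟩
    intro h1
    apply hs1
    have h2 : f z * s * (f z)⁻¹ = 1 := h1
    have : s = (f z)⁻¹ * (f z * s * (f z)⁻¹) * f z := by group
    rw [this, h2]; group
  have hinj : Function.Injective (fun z : SB => (⟨_, hmem z⟩ : (SA \ {1} : Set G))) := by
    intro z z' hzz
    have h1 : f z * s * (f z)⁻¹ = f z' * s * (f z')⁻¹ := congrArg Subtype.val hzz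
    have h2 : ((f z')⁻¹ * f z) * s = s * ((f z')⁻¹ * f z) := by
      calc ((f z')⁻¹ * f z) * s = (f z')⁻¹ * (f z * s * (f z)⁻¹) * f z := by group
        _ = (f z')⁻¹ * (f z' * s * (f z')⁻¹) * f z := by rw [h1]
        _ = s * ((f z')⁻¹ * f z) := by group
    have h3 : ∀ m ∈ M, ((f z')⁻¹ * f z) * m = m * ((f z')⁻¹ * f z) := by
      rcases hdich ((f z')⁻¹ * f z) with h | h
      · exact h
      · exact absurd (h s hsM h2) hs1
    apply Subtype.ext
    rw [hf z, hf z']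
    have h4 := h3 m₀ hm₀
    have h5 : f z * m₀ * (f z)⁻¹ = f z' * m₀ * (f z')⁻¹ := by
      calc f z * m₀ * (f z)⁻¹ = f z' * (((f z')⁻¹ * f z) * m₀) * (f z)⁻¹ := by group
        _ = f z' * (m₀ * ((f z')⁻¹ * f z)) * (f z)⁻¹ := by rw [h4]
        _ = f z' * m₀ * (f z')⁻¹ := by group
    rw [h5]
  have h1 : Nat.card SB ≤ Nat.card (SA \ {1} : Set G) := Nat.card_le_card_of_injective _ hinj
  have h2 : (1 : G) ∈ SA := ⟨1, A.one_mem, by group⟩
  have h3 : Nat.card (SA \ {1} : Set G) + 1 = Nat.card SA := by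
    rw [Nat.card_coe_set_eq, Nat.card_coe_set_eq]
    exact Set.ncard_sdiff_singleton_add_one h2 (Set.toFinite _)
  omega

omit [Finite G] in
theorem exists_conj_of_fpf [Finite M] (hMn : M.Normal) (h : G)
    (hf : ∀ m ∈ M, h * m = m * h → m = 1) (c : G) (hc : c ∈ M) :
    ∃ u ∈ M, h * c = u * h * u⁻¹ := by
  let φ : M → M := fun u => ⟨(u : G) * (h * (u : G)⁻¹ * h⁻¹),
    M.mul_mem u.2 (hMn.conj_mem _ (M.inv_mem u.2) h)⟩
  have hinj : Function.Injective φ := by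
    intro u v huv
    have e : (u : G) * (h * (u : G)⁻¹ * h⁻¹) = (v : G) * (h * (v : G)⁻¹ * h⁻¹) :=
      congrArg Subtype.val huv
    have e1 : (u : G) * h * (u : G)⁻¹ = (v : G) * h * (v : G)⁻¹ := by
      have := congrArg (fun z => z * h) e
      simpa [mul_assoc] using this
    have e2 : h * ((v : G)⁻¹ * u) = ((v : G)⁻¹ * u) * h := by
      calc h * ((v : G)⁻¹ * u) = (v : G)⁻¹ * ((v : G) * h * (v : G)⁻¹) * u := by group
        _ = (v : G)⁻¹ * ((u : G) * h * (u : G)⁻¹) * u := by rw [e1]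
        _ = ((v : G)⁻¹ * u) * h := by group
    have e3 := hf _ (M.mul_mem (M.inv_mem v.2) u.2) e2
    exact Subtype.ext (inv_mul_eq_one.mp e3).symm
  obtain ⟨u, hu⟩ := (Finite.injective_iff_surjective.mp hinj) ⟨h * c * h⁻¹, hMn.conj_mem c hc h⟩
  refine ⟨u, u.2, ?_⟩
  have e : (u : G) * (h * (u : G)⁻¹ * h⁻¹) = h * c * h⁻¹ := congrArg Subtype.val hu
  calc h * c = (h * c * h⁻¹) * h := by group
    _ = (u : G) * (h * (u : G)⁻¹ * h⁻¹) * h := by rw [e]
    _ = u * h * (u : G)⁻¹ := by group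

theorem ito_inv (hA : ∀ x ∈ A, ∀ y ∈ A, x * y = y * x) (hB : ∀ x ∈ B, ∀ y ∈ B, x * y = y * x)
    (hAB : ∀ g : G, ∃ a ∈ A, ∃ b ∈ B, g = a * b)
    (hZ : ∀ z : G, (∀ g : G, z * g = g * z) → z = 1)
    (hMn : M.Normal) (hMc : ∀ x ∈ M, ∀ y ∈ M, x * y = y * x)
    (hdich : ∀ g : G, (∀ m ∈ M, g * m = m * g) ∨ (∀ m ∈ M, g * m = m * g → m = 1))
    (m₀ : G) (hm₀ : m₀ ∈ M) :
    ∀ a ∈ A, ∀ b ∈ B, ∃ a' ∈ A, a' * m₀ * a'⁻¹ * m₀⁻¹ = b * (a * m₀ * a⁻¹ * m₀⁻¹) * b⁻¹ := by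
  obtain ⟨x, hx, y, hy, hxy⟩ := hAB m₀
  have hyx : y = x⁻¹ * m₀ := by rw [hxy]; group
  have hyM : ∀ m ∈ M, y * m = m * y := by
    rcases hdich y with h | h
    · exact h
    · -- `y` acts fixed point freely, hence is conjugate to `x⁻¹` and central
      have hf : ∀ m ∈ M, x⁻¹ * m = m * x⁻¹ → m = 1 := by
        intro m hm hc
        apply h m hm
        rw [hyx, mul_assoc, hMc m₀ hm₀ m hm, ← mul_assoc, hc, mul_assoc]
      obtain ⟨u, huM, hu⟩ := exists_conj_of_fpf M hMn x⁻¹ hf m₀ hm₀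
      rw [← hyx] at hu
      obtain ⟨b₀, hb₀, a₀, ha₀, hu0⟩ := mul_comm_of_mul A B hAB u
      have hyB : ∀ b ∈ B, y * b = b * y := fun b hb => hB y hy b hb
      have hyA : ∀ a ∈ A, y * a = a * y := by
        intro a₂ ha₂
        have h1 : y * (u * a₂ * u⁻¹) = (u * a₂ * u⁻¹) * y := by
          rw [hu]
          calc u * x⁻¹ * u⁻¹ * (u * a₂ * u⁻¹) = u * (x⁻¹ * a₂) * u⁻¹ := by group
            _ = u * (a₂ * x⁻¹) * u⁻¹ := by rw [hA _ (A.inv_mem hx) a₂ ha₂]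
            _ = u * a₂ * u⁻¹ * (u * x⁻¹ * u⁻¹) := by group
        have h2 : u * a₂ * u⁻¹ = b₀ * a₂ * b₀⁻¹ := by
          rw [hu0]
          calc b₀ * a₀ * a₂ * (b₀ * a₀)⁻¹ = b₀ * (a₀ * a₂) * a₀⁻¹ * b₀⁻¹ := by group
            _ = b₀ * (a₂ * a₀) * a₀⁻¹ * b₀⁻¹ := by rw [hA a₀ ha₀ a₂ ha₂]
            _ = b₀ * a₂ * b₀⁻¹ := by group
        rw [h2] at h1
        have h3 := hyB b₀ hb₀
        have h4 : y * b₀⁻¹ = b₀⁻¹ * y := hyB _ (B.inv_mem hb₀)
        calc y * a₂ = y * b₀⁻¹ * (b₀ * a₂ * b₀⁻¹) * b₀ := by group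
          _ = b₀⁻¹ * (y * (b₀ * a₂ * b₀⁻¹)) * b₀ := by rw [h4]; group
          _ = b₀⁻¹ * ((b₀ * a₂ * b₀⁻¹) * y) * b₀ := by rw [h1]
          _ = a₂ * b₀⁻¹ * (y * b₀) := by group
          _ = a₂ * b₀⁻¹ * (b₀ * y) := by rw [h3]
          _ = a₂ * y := by group
      have hy1 : y = 1 := by
        apply hZ
        intro g
        obtain ⟨a, ha, b, hb, rfl⟩ := hAB g
        rw [← mul_assoc, hyA a ha, mul_assoc, hyB b hb, mul_assoc]
      intro m _
      rw [hy1, one_mul, mul_one]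
  have hxM : ∀ m ∈ M, x * m = m * x := by
    intro m hm
    have hx' : x = m₀ * y⁻¹ := by rw [hxy]; group
    have h1 : y⁻¹ * m = m * y⁻¹ := by
      have := hyM m hm
      calc y⁻¹ * m = y⁻¹ * (m * y) * y⁻¹ := by group
        _ = y⁻¹ * (y * m) * y⁻¹ := by rw [this]
        _ = m * y⁻¹ := by group
    rw [hx', mul_assoc, h1, ← mul_assoc, hMc m₀ hm₀ m hm, mul_assoc]
  have hrel : ∀ a ∈ A, a * y * a⁻¹ * y⁻¹ = a * m₀ * a⁻¹ * m₀⁻¹ := by
    intro a ha
    have h1 : a * m₀ * a⁻¹ * m₀⁻¹ ∈ M := M.mul_mem (hMn.conj_mem m₀ hm₀ a) (M.inv_mem hm₀)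
    have h2 := hxM _ h1
    have h3 : a * x⁻¹ = x⁻¹ * a := hA a ha _ (A.inv_mem hx)
    calc a * y * a⁻¹ * y⁻¹ = (a * x⁻¹) * m₀ * a⁻¹ * m₀⁻¹ * x := by rw [hyx]; group
      _ = x⁻¹ * ((a * m₀ * a⁻¹ * m₀⁻¹) * x) := by rw [h3]; group
      _ = x⁻¹ * (x * (a * m₀ * a⁻¹ * m₀⁻¹)) := by rw [h2]
      _ = a * m₀ * a⁻¹ * m₀⁻¹ := by group
  intro a ha b hb
  obtain ⟨a', ha', b', hb', hab⟩ := hAB (b * a)
  refine ⟨a', ha', ?_⟩
  rw [← hrel a' ha', ← hrel a ha]
  have h1 : b' * y = y * b' := hB b' hb' y hy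
  have h2 : b⁻¹ * y⁻¹ = y⁻¹ * b⁻¹ := hB _ (B.inv_mem hb) _ (B.inv_mem hy)
  calc a' * y * a'⁻¹ * y⁻¹ = a' * (y * b') * b'⁻¹ * a'⁻¹ * y⁻¹ := by group
    _ = a' * (b' * y) * b'⁻¹ * a'⁻¹ * y⁻¹ := by rw [h1]
    _ = (a' * b') * y * (a' * b')⁻¹ * y⁻¹ := by group
    _ = (b * a) * y * (b * a)⁻¹ * y⁻¹ := by rw [hab]
    _ = b * (a * y * a⁻¹) * (b⁻¹ * y⁻¹) := by group
    _ = b * (a * y * a⁻¹) * (y⁻¹ * b⁻¹) := by rw [h2]
    _ = b * (a * y * a⁻¹ * y⁻¹) * b⁻¹ := by group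

omit [Finite G] in
theorem le_of_centralizes (hA : ∀ x ∈ A, ∀ y ∈ A, x * y = y * x)
    (hB : ∀ x ∈ B, ∀ y ∈ B, x * y = y * x)
    (hAB : ∀ g : G, ∃ a ∈ A, ∃ b ∈ B, g = a * b)
    (hZ : ∀ z : G, (∀ g : G, z * g = g * z) → z = 1)
    (hc : ∀ a ∈ A, ∀ m ∈ M, a * m = m * a) : M ≤ A := by
  intro m hm
  obtain ⟨a, ha, b, hb, rfl⟩ := hAB m
  have hb1 : b = 1 := by
    apply hZ
    intro g
    obtain ⟨a', ha', b', hb', rfl⟩ := hAB g
    have h1 : b * a' = a' * b := by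
      have h2 := hc a' ha' _ hm
      have h3 := hA a' ha' a ha
      calc b * a' = a⁻¹ * ((a * b) * a') := by group
        _ = a⁻¹ * (a' * (a * b)) := by rw [h2]
        _ = a⁻¹ * (a' * a) * b := by group
        _ = a⁻¹ * (a * a') * b := by rw [h3]
        _ = a' * b := by group
    rw [← mul_assoc, h1, mul_assoc, hB b hb b' hb', mul_assoc]
  rw [hb1, mul_one]
  exact ha

theorem ito_normal [Nontrivial G] [IsMulCommutative A] [IsMulCommutative B]
    (hAB : ∀ g : G, ∃ a ∈ A, ∃ b ∈ B, g = a * b) :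
    ∃ N : Subgroup G, N.Normal ∧ N ≠ ⊥ ∧ (N ≤ A ∨ N ≤ B) := by
  have hA : ∀ x ∈ A, ∀ y ∈ A, x * y = y * x := fun x hx y hy => comm_of_mem hx hy
  have hB : ∀ x ∈ B, ∀ y ∈ B, x * y = y * x := fun x hx y hy => comm_of_mem hx hy
  have hBA := mul_comm_of_mul A B hAB
  have hcentral : ∀ c : G, (∀ g : G, c * g = g * c) → c ≠ 1 →
      (zpowers c).Normal ∧ zpowers c ≠ ⊥ := by
    intro c hc hc1
    refine ⟨⟨?_⟩, fun h => hc1 (zpowers_eq_bot.mp h)⟩
    rintro _ ⟨k, rfl⟩ g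
    have h1 : g * c ^ k = c ^ k * g := ((Commute.zpow_left (hc g) k).eq).symm
    simp only
    rw [h1, mul_inv_cancel_right]
    exact zpow_mem (mem_zpowers c) k
  by_cases hZ : ∀ z : G, (∀ g : G, z * g = g * z) → z = 1
  swap
  · push Not at hZ
    obtain ⟨z, hz, hz1⟩ := hZ
    obtain ⟨a, ha, b, hb, rfl⟩ := hAB z
    by_cases ha1 : a = 1
    · subst ha1
      rw [one_mul] at hz hz1
      obtain ⟨h1, h2⟩ := hcentral b hz hz1
      exact ⟨zpowers b, h1, h2, Or.inr (zpowers_le.mpr hb)⟩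
    · have hac : ∀ g : G, a * g = g * a := by
        intro g
        obtain ⟨a', ha', b', hb', rfl⟩ := hAB g
        have h1 : a * b' = b' * a := by
          have h2 := hz b'
          have h3 := hB b hb b' hb'
          calc a * b' = a * (b * b') * b⁻¹ := by rw [h3]; group
            _ = (a * b * b') * b⁻¹ := by group
            _ = (b' * (a * b)) * b⁻¹ := by rw [h2]
            _ = b' * a := by group
        rw [← mul_assoc, hA a ha a' ha', mul_assoc, h1, mul_assoc]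
      obtain ⟨h1, h2⟩ := hcentral a hac ha1
      exact ⟨zpowers a, h1, h2, Or.inl (zpowers_le.mpr ha)⟩
  · have hder := Cfsg.Agent.S0572.result A B hAB
    have hsolv : Group.IsSolvable G := ⟨⟨2, hder⟩⟩
    obtain ⟨M, hMn, hM0, -, hmin⟩ := exists_minimal_normal_le (D := (⊤ : Subgroup G))
      inferInstance top_ne_bot
    obtain ⟨hMc', -⟩ := minimal_normal_of_solvable M hM0 hmin
    have hMc : ∀ x ∈ M, ∀ y ∈ M, x * y = y * x := fun x hx y hy => comm_of_mem hx hy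
    have hGc : ∀ x ∈ commutator G, ∀ y ∈ commutator G, x * y = y * x := by
      intro x hx y hy
      have h1 : ⁅x, y⁆ ∈ derivedSeries G 2 := by
        rw [derivedSeries_succ, derivedSeries_one]
        exact commutator_mem_commutator hx hy
      rw [hder, mem_bot, commutatorElement_eq_one_iff_mul_comm] at h1
      exact h1
    have hMG : M ≤ commutator G := by
      rcases hmin (M ⊓ commutator G) inferInstance inf_le_left with h | h
      · exfalso
        apply hM0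
        rw [eq_bot_iff]
        intro m hm
        rw [mem_bot]
        apply hZ
        intro g
        have h1 : ⁅m, g⁆ ∈ M ⊓ commutator G := by
          refine mem_inf.2 ⟨?_, ?_⟩
          · rw [commutatorElement_def, mul_assoc, mul_assoc]
            refine M.mul_mem hm ?_
            rw [← mul_assoc]
            exact hMn.conj_mem _ (M.inv_mem hm) g
          · rw [_root_.commutator_def]
            exact commutator_mem_commutator (mem_top m) (mem_top g)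
        rw [h, mem_bot, commutatorElement_eq_one_iff_mul_comm] at h1
        exact h1
      · exact inf_eq_left.mp h
    have hdich : ∀ g : G, (∀ m ∈ M, g * m = m * g) ∨ (∀ m ∈ M, g * m = m * g → m = 1) := by
      intro g
      have hn : (M ⊓ centralizer {g}).Normal := by
        constructor
        intro x hx h
        have hxM := (mem_inf.1 hx).1
        have hxg : x * g = g * x := mem_centralizer_singleton_iff.mp (mem_inf.1 hx).2
        refine mem_inf.2 ⟨hMn.conj_mem x hxM h, ?_⟩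
        rw [mem_centralizer_singleton_iff]
        have hc : ⁅h⁻¹, g⁆ ∈ commutator G := by
          rw [_root_.commutator_def]
          exact commutator_mem_commutator (mem_top _) (mem_top _)
        have h1 := hGc _ hc x (hMG hxM)
        rw [commutatorElement_def] at h1
        calc h * x * h⁻¹ * g = h * (x * (h⁻¹ * g * h⁻¹⁻¹ * g⁻¹)) * g * h⁻¹ := by group
          _ = h * ((h⁻¹ * g * h⁻¹⁻¹ * g⁻¹) * x) * g * h⁻¹ := by rw [h1]
          _ = g * h * g⁻¹ * (x * g) * h⁻¹ := by group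
          _ = g * h * g⁻¹ * (g * x) * h⁻¹ := by rw [hxg]
          _ = g * (h * x * h⁻¹) := by group
      rcases hmin _ hn inf_le_left with h | h
      · right
        intro m hm hc
        have : m ∈ M ⊓ centralizer {g} :=
          mem_inf.2 ⟨hm, mem_centralizer_singleton_iff.mpr hc.symm⟩
        rwa [h, mem_bot] at this
      · left
        intro m hm
        have : m ∈ M ⊓ centralizer {g} := by rw [h]; exact hm
        exact (mem_centralizer_singleton_iff.mp (mem_inf.1 this).2).symm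
    by_cases hcA : ∀ a ∈ A, ∀ m ∈ M, a * m = m * a
    · exact ⟨M, hMn, hM0, Or.inl (le_of_centralizes A B M hA hB hAB hZ hcA)⟩
    by_cases hcB : ∀ b ∈ B, ∀ m ∈ M, b * m = m * b
    · exact ⟨M, hMn, hM0, Or.inr (le_of_centralizes B A M hB hA hBA hZ hcB)⟩
    exfalso
    push Not at hcA hcB
    obtain ⟨a, ha, m₁, hm₁, ham⟩ := hcA
    obtain ⟨b, hb, m₂, hm₂, hbm⟩ := hcB
    have haf := (hdich a).resolve_left (fun h => ham (h m₁ hm₁))
    have hbf := (hdich b).resolve_left (fun h => hbm (h m₂ hm₂))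
    obtain ⟨m₀, hm₀⟩ := (M.ne_bot_iff_exists_ne_one).mp hM0
    have hm₀1 : (m₀ : G) ≠ 1 := fun h => hm₀ (Subtype.ext h)
    have c1 := ito_count_step A B M hdich m₀ m₀.2 hm₀1 a ha haf hMn
      (ito_inv A B M hA hB hAB hZ hMn hMc hdich m₀ m₀.2)
    have c2 := ito_count_step B A M hdich m₀ m₀.2 hm₀1 b hb hbf hMn
      (ito_inv B A M hB hA hBA hZ hMn hMc hdich m₀ m₀.2)
    omega

end

end Cfsg.Agent.H4
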