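import Mathlib
import Cfsg.Agent.H4.Subnormal2
import Cfsg.Agent.H4.SolvMin
import Cfsg.Agent.H4.Factor

/-! Permutable subgroups and Kegel's lemma. -/

namespace Cfsg.Agent.H4

open Subgroup
open scoped Pointwise

variable {G : Type*} [Group G]

/-- `A` permutes with `C`. -/
def Perm (A C : Subgroup G) : Prop :=
  ∀ c ∈ C, ∀ a ∈ A, ∃ a' ∈ A, ∃ c' ∈ C, c * a = a' * c'

theorem perm_of_coe_eq {A C S : Subgroup G} (h : (S : Set G) = (A : Set G) * (C : Set G)) :
    Perm A C := by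
  intro c hc a ha
  have h1 : c ∈ (S : Set G) := by
    rw [h]; exact Set.mem_mul.2 ⟨1, A.one_mem, c, hc, one_mul c⟩
  have h2 : a ∈ (S : Set G) := by
    rw [h]; exact Set.mem_mul.2 ⟨a, ha, 1, C.one_mem, mul_one a⟩
  have h3 : c * a ∈ (S : Set G) := S.mul_mem h1 h2
  rw [h] at h3
  obtain ⟨a', ha', c', hc', e⟩ := Set.mem_mul.1 h3
  exact ⟨a', ha', c', hc', e.symm⟩

theorem exists_coe_eq_of_perm {A C : Subgroup G} (h : Perm A C) :
    ∃ S : Subgroup G, (S : Set G) = (A : Set G) * (C : Set G) := by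
  refine ⟨{ carrier := (A : Set G) * (C : Set G), mul_mem' := ?_, one_mem' := ?_,
            inv_mem' := ?_ }, rfl⟩
  · rintro _ _ ⟨a, ha, c, hc, rfl⟩ ⟨a', ha', c', hc', rfl⟩
    obtain ⟨a'', ha'', c'', hc'', e⟩ := h c hc a' ha'
    refine Set.mem_mul.2 ⟨a * a'', A.mul_mem ha ha'', c'' * c', C.mul_mem hc'' hc', ?_⟩
    change a * a'' * (c'' * c') = a * c * (a' * c')
    calc a * a'' * (c'' * c') = a * (a'' * c'') * c' := by group
      _ = a * (c * a') * c' := by rw [e]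
      _ = a * c * (a' * c') := by group
  · exact Set.mem_mul.2 ⟨1, A.one_mem, 1, C.one_mem, one_mul 1⟩
  · rintro _ ⟨a, ha, c, hc, rfl⟩
    obtain ⟨a', ha', c', hc', e⟩ := h c⁻¹ (C.inv_mem hc) a⁻¹ (A.inv_mem ha)
    refine Set.mem_mul.2 ⟨a', ha', c', hc', ?_⟩
    change a' * c' = (a * c)⁻¹
    rw [← e, mul_inv_rev]

theorem perm_sup {A C₁ C₂ : Subgroup G} (h₁ : Perm A C₁) (h₂ : Perm A C₂) :
    Perm A (C₁ ⊔ C₂) := by
  have key : ∀ c ∈ C₁ ⊔ C₂,
      (∀ a ∈ A, ∃ a' ∈ A, ∃ c' ∈ C₁ ⊔ C₂, c * a = a' * c') ∧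
      (∀ a ∈ A, ∃ a' ∈ A, ∃ c' ∈ C₁ ⊔ C₂, c⁻¹ * a = a' * c') := by
    intro c hc
    rw [sup_eq_closure] at hc
    induction hc using closure_induction with
    | mem x hx =>
      rcases hx with hx | hx
      · constructor
        · intro a ha
          obtain ⟨a', ha', c', hc', e⟩ := h₁ x hx a ha
          exact ⟨a', ha', c', (le_sup_left : C₁ ≤ C₁ ⊔ C₂) hc', e⟩
        · intro a ha
          obtain ⟨a', ha', c', hc', e⟩ := h₁ x⁻¹ (C₁.inv_mem hx) a ha
          exact ⟨a', ha', c', (le_sup_left : C₁ ≤ C₁ ⊔ C₂) hc', e⟩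
      · constructor
        · intro a ha
          obtain ⟨a', ha', c', hc', e⟩ := h₂ x hx a ha
          exact ⟨a', ha', c', (le_sup_right : C₂ ≤ C₁ ⊔ C₂) hc', e⟩
        · intro a ha
          obtain ⟨a', ha', c', hc', e⟩ := h₂ x⁻¹ (C₂.inv_mem hx) a ha
          exact ⟨a', ha', c', (le_sup_right : C₂ ≤ C₁ ⊔ C₂) hc', e⟩
    | one =>
      constructor
      · intro a ha
        exact ⟨a, ha, 1, one_mem _, by group⟩
      · intro a ha
        exact ⟨a, ha, 1, one_mem _, by group⟩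
    | mul x y _ _ hx hy =>
      constructor
      · intro a ha
        obtain ⟨a', ha', c', hc', e⟩ := hy.1 a ha
        obtain ⟨a'', ha'', c'', hc'', e'⟩ := hx.1 a' ha'
        refine ⟨a'', ha'', c'' * c', mul_mem hc'' hc', ?_⟩
        rw [mul_assoc, e, ← mul_assoc, e', mul_assoc]
      · intro a ha
        obtain ⟨a', ha', c', hc', e⟩ := hx.2 a ha
        obtain ⟨a'', ha'', c'', hc'', e'⟩ := hy.2 a' ha'
        refine ⟨a'', ha'', c'' * c', mul_mem hc'' hc', ?_⟩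
        rw [mul_inv_rev, mul_assoc, e, ← mul_assoc, e', mul_assoc]
    | inv x _ hx =>
      refine ⟨hx.2, ?_⟩
      rw [inv_inv]
      exact hx.1
  intro c hc
  exact (key c hc).1

theorem kegel_aux [Finite G] (A : Subgroup G) : ∀ (n : ℕ) (B : Subgroup G),
    Nat.card G - Nat.card B = n →
    (∀ x : G, ∃ S : Subgroup G, S ≠ ⊤ ∧
      (S : Set G) = (A : Set G) * ((MulAut.conj x • B : Subgroup G) : Set G)) →
    ∃ N : Subgroup G, N.Normal ∧ N ≠ ⊤ ∧ (A ≤ N ∨ B ≤ N) := by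
  intro n
  induction n using Nat.strong_induction_on with
  | _ n ih =>
  intro B hn h
  by_cases hA : normalClosure (A : Set G) = ⊤
  swap
  · exact ⟨normalClosure (A : Set G), normalClosure_normal, hA, Or.inl subset_normalClosure⟩
  by_cases hBn : B.Normal
  · refine ⟨B, hBn, ?_, Or.inr le_rfl⟩
    rintro rfl
    obtain ⟨S, hS, e⟩ := h 1
    apply hS
    rw [eq_top_iff]
    intro y _
    rw [← SetLike.mem_coe, e, map_one, one_smul]
    exact Set.mem_mul.2 ⟨1, A.one_mem, y, mem_top y, one_mul y⟩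
  have hex : ∃ g : G, ∃ a ∈ A, g * a * g⁻¹ ∉ normalizer (B : Set G) := by
    by_contra hcon
    push Not at hcon
    apply hBn
    rw [← normalizer_eq_top_iff, eq_top_iff, ← hA]
    unfold normalClosure
    rw [closure_le]
    intro y hy
    rw [Group.mem_conjugatesOfSet_iff] at hy
    obtain ⟨a, ha, hc⟩ := hy
    obtain ⟨c, rfl⟩ := isConj_iff.1 hc
    exact hcon c a ha
  obtain ⟨g, a, ha, hga⟩ := hex
  have haN : a ∉ normalizer ((MulAut.conj g⁻¹ • B : Subgroup G) : Set G) := by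
    rw [← smul_normalizer, mem_pointwise_smul_iff_inv_smul_mem, ← map_inv, inv_inv]
    exact hga
  have hB'card : Nat.card (MulAut.conj g⁻¹ • B : Subgroup G) = Nat.card B := card_conj_smul' _ _
  have hB'h : ∀ x : G, ∃ S : Subgroup G, S ≠ ⊤ ∧ (S : Set G) =
      (A : Set G) * ((MulAut.conj x • (MulAut.conj g⁻¹ • B) : Subgroup G) : Set G) := by
    intro x
    rw [← mul_smul, ← map_mul]
    exact h _
  have hB'B : ∀ N : Subgroup G, N.Normal → MulAut.conj g⁻¹ • B ≤ N → B ≤ N := by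
    intro N hN hle
    have := pointwise_smul_le_pointwise_smul_iff (a := MulAut.conj g) |>.2 hle
    rwa [← mul_smul, ← map_mul, mul_inv_cancel, map_one, one_smul,
      Subgroup.Normal.conj_smul_eq_self] at this
  generalize MulAut.conj g⁻¹ • B = B' at haN hB'card hB'h hB'B
  have hlt : B' < B' ⊔ MulAut.conj a • B' := by
    apply lt_of_le_of_ne le_sup_left
    intro e
    apply haN
    rw [← conj_smul_eq_iff_mem_normalizer]
    have hle : MulAut.conj a • B' ≤ B' := by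
      conv_rhs => rw [e]
      exact le_sup_right
    exact eq_of_le_of_card_ge hle (card_conj_smul' a B').symm.le
  have hcardlt : Nat.card B' < Nat.card (B' ⊔ MulAut.conj a • B' : Subgroup G) := by
    by_contra hcon
    push Not at hcon
    exact hlt.ne (eq_of_le_of_card_ge hlt.le hcon)
  have hle : Nat.card (B' ⊔ MulAut.conj a • B' : Subgroup G) ≤ Nat.card G :=
    Subgroup.card_le_card_group _
  obtain ⟨N, hN, hNt, hor⟩ := ih (Nat.card G - Nat.card (B' ⊔ MulAut.conj a • B' : Subgroup G))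
    (by omega) (B' ⊔ MulAut.conj a • B') rfl (by
    intro x
    have hp : Perm A (MulAut.conj x • (B' ⊔ MulAut.conj a • B')) := by
      rw [Subgroup.smul_sup]
      apply perm_sup
      · obtain ⟨S, -, e⟩ := hB'h x
        exact perm_of_coe_eq e
      · obtain ⟨S, -, e⟩ := hB'h (x * a)
        rw [map_mul, mul_smul] at e
        exact perm_of_coe_eq e
    obtain ⟨S, hS⟩ := exists_coe_eq_of_perm hp
    refine ⟨S, ?_, hS⟩
    rintro rfl
    have hx : x⁻¹ ∈ ((⊤ : Subgroup G) : Set G) := mem_top _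
    rw [hS] at hx
    obtain ⟨a₁, ha₁, y, hy, e⟩ := Set.mem_mul.1 hx
    rw [SetLike.mem_coe, mem_pointwise_smul_iff_inv_smul_mem, ← map_inv, MulAut.smul_def,
      MulAut.conj_apply, inv_inv] at hy
    -- x = a₁⁻¹ * b⁻¹ with b = x⁻¹ y x
    have hxe : x = a₁⁻¹ * (x⁻¹ * y * x)⁻¹ := by
      have : y = a₁⁻¹ * x⁻¹ := by rw [← e]; group
      rw [this]; group
    obtain ⟨S₀, hS₀, e₀⟩ := hB'h 1
    rw [map_one, one_smul] at e₀
    have hAS₀ : A ≤ S₀ := by
      intro z hz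
      rw [← SetLike.mem_coe, e₀]
      exact Set.mem_mul.2 ⟨z, hz, 1, B'.one_mem, mul_one z⟩
    have hBS₀ : B' ≤ S₀ := by
      intro z hz
      rw [← SetLike.mem_coe, e₀]
      exact Set.mem_mul.2 ⟨1, A.one_mem, z, hz, one_mul z⟩
    have hB₁S₀ : B' ⊔ MulAut.conj a • B' ≤ S₀ :=
      sup_le hBS₀ (conj_smul_le_of_le hBS₀ ⟨a, hAS₀ ha⟩)
    have hconj : MulAut.conj x • (B' ⊔ MulAut.conj a • B') ≤ S₀ := by
      rw [hxe, map_mul, mul_smul, conj_smul_eq_self_of_mem (inv_mem hy)]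
      exact conj_smul_le_of_le hB₁S₀ ⟨a₁⁻¹, hAS₀ (inv_mem ha₁)⟩
    apply hS₀
    rw [eq_top_iff]
    intro z _
    have hz : z ∈ ((⊤ : Subgroup G) : Set G) := mem_top _
    rw [hS] at hz
    obtain ⟨u, hu, v, hv, rfl⟩ := Set.mem_mul.1 hz
    exact S₀.mul_mem (hAS₀ hu) (hconj hv))
  refine ⟨N, hN, hNt, ?_⟩
  rcases hor with h1 | h1
  · exact Or.inl h1
  · exact Or.inr (hB'B N hN (le_sup_left.trans h1))

end Cfsg.Agent.H4
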