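import Mathlib
import Cfsg.Agent.H4.Primitive
import Cfsg.Agent.H4.SolvMin
import Cfsg.Agent.H4.Nilp
import Cfsg.Agent.H4.Subnormal2

set_option autoImplicit false

namespace Cfsg.Agent.H4

open Subgroup
open scoped Pointwise

/-- An abelian minimal normal `p`-subgroup has exponent `p`. -/
theorem pow_eq_one_of_minimal_normal {G : Type*} [Group G] [Finite G] {p : ℕ} [Fact p.Prime]
    (N : Subgroup G) [hNn : N.Normal] (hN : N ≠ ⊥)
    (hmin : ∀ K : Subgroup G, K.Normal → K ≤ N → K = ⊥ ∨ K = N)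
    (hc : IsMulCommutative N) (hp : IsPGroup p N) : ∀ a ∈ N, a ^ p = 1 := by
  have hcomm : ∀ a ∈ N, ∀ b ∈ N, Commute a b := fun a ha b hb => comm_of_mem ha hb
  let Ω : Subgroup G :=
    { carrier := {a | a ∈ N ∧ a ^ p = 1}
      mul_mem' := by
        rintro a b ⟨ha, ha'⟩ ⟨hb, hb'⟩
        exact ⟨N.mul_mem ha hb, by rw [(hcomm a ha b hb).mul_pow, ha', hb', one_mul]⟩
      one_mem' := ⟨N.one_mem, one_pow _⟩
      inv_mem' := by
        rintro a ⟨ha, ha'⟩
        exact ⟨N.inv_mem ha, by rw [inv_pow, ha', inv_one]⟩ }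
  have hΩn : Ω.Normal := by
    constructor
    rintro a ⟨ha, ha'⟩ g
    exact ⟨hNn.conj_mem a ha g, by rw [conj_pow, ha', mul_one, mul_inv_cancel]⟩
  have hΩle : Ω ≤ N := fun a ha => ha.1
  have hΩ0 : Ω ≠ ⊥ := by
    have hnt : Nontrivial N := (nontrivial_iff_ne_bot N).mpr hN
    obtain ⟨n, hn⟩ := IsPGroup.iff_card.mp hp
    have hn0 : n ≠ 0 := by
      rintro rfl
      rw [pow_zero] at hn
      exact hN ((card_eq_one).mp hn)
    have hdvd : p ∣ Nat.card N := by rw [hn]; exact dvd_pow_self p hn0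
    obtain ⟨x, hx⟩ := exists_prime_orderOf_dvd_card' p hdvd
    intro h
    have h1 : (x : G) ∈ Ω := ⟨x.2, by
      have := pow_orderOf_eq_one x
      rw [hx] at this
      exact congrArg Subtype.val this⟩
    rw [h, mem_bot] at h1
    have h2 : x = 1 := Subtype.ext h1
    rw [h2, orderOf_one] at hx
    exact (Fact.out : p.Prime).one_lt.ne hx
  have := (hmin Ω hΩn hΩle).resolve_left hΩ0
  intro a ha
  rw [← this] at ha
  exact ha.2

/-- A `q`-group `Q` normalizing `L` with `C_L(Q) = 1` forces `|L| ≡ 1 mod q`. -/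
theorem card_modEq_one_of_centralizer_eq_bot {G : Type*} [Group G] [Finite G] {q : ℕ}
    [Fact q.Prime] (L Q : Subgroup G) [hLn : L.Normal] (hQ : IsPGroup q Q)
    (h : L ⊓ centralizer (Q : Set G) = ⊥) : Nat.card L ≡ 1 [MOD q] := by
  let _ : MulAction Q L := MulAction.compHom L ((MulAut.conjNormal (H := L)).comp Q.subtype)
  have h1 := hQ.card_modEq_card_fixedPoints L
  have h2 : Nat.card (MulAction.fixedPoints Q L) = 1 := by
    rw [Nat.card_eq_one_iff_unique]
    refine ⟨⟨?_⟩, ⟨⟨1, ?_⟩⟩⟩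
    · have key : ∀ a : MulAction.fixedPoints Q L, (a : L) = 1 := by
        rintro ⟨a, ha⟩
        have h3 : (a : G) ∈ L ⊓ centralizer (Q : Set G) := by
          refine mem_inf.2 ⟨a.2, ?_⟩
          rw [mem_centralizer_iff]
          intro x hx
          have h4 : (⟨x, hx⟩ : Q) • a = a := ha ⟨x, hx⟩
          have h5 : x * (a : G) * x⁻¹ = a := congrArg Subtype.val h4
          calc x * (a : G) = x * (a : G) * x⁻¹ * x := by group
            _ = a * x := by rw [h5]
        rw [h, mem_bot] at h3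
        exact Subtype.ext h3
      intro a b
      exact Subtype.ext ((key a).trans (key b).symm)
    · intro x
      change MulAut.conjNormal (x : G) (1 : L) = 1
      exact map_one _
  rwa [h2] at h1

end Cfsg.Agent.H4
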