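import Mathlib
import Cfsg.Agent.H4.SolvMin

/-! Faithful primitive actions of finite solvable groups. -/

namespace Cfsg.Agent.H4

open Subgroup MulAction

variable {G : Type*} [Group G] {Ω : Type*} [MulAction G Ω] [FaithfulSMul G Ω]

theorem isPretransitive_of_minimal_normal (hprim : IsPreprimitive G Ω) (M : Subgroup G) [M.Normal]
    (hM : M ≠ ⊥) : IsPretransitive M Ω := by
  have := hprim.isQuasiPreprimitive
  apply IsQuasiPreprimitive.isPretransitive_of_normal (G := G)
  intro h
  apply hM
  rw [eq_bot_iff]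
  intro m hm
  rw [mem_bot]
  apply FaithfulSMul.eq_of_smul_eq_smul (α := Ω)
  intro a
  have ha : a ∈ fixedPoints M Ω := h ▸ Set.mem_univ a
  rw [one_smul]
  exact ha ⟨m, hm⟩

/-- An element fixing a point and commuting with a transitive subgroup is trivial. -/
theorem eq_one_of_fix_of_commute (M : Subgroup G) [IsPretransitive M Ω] (ω : Ω) (h : G)
    (hω : h • ω = ω) (hc : ∀ m ∈ M, m * h = h * m) : h = 1 := by
  apply FaithfulSMul.eq_of_smul_eq_smul (α := Ω)
  intro a
  obtain ⟨m, rfl⟩ := exists_smul_eq M ω a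
  rw [one_smul]
  change h • ((m : G) • ω) = (m : G) • ω
  rw [← mul_smul, ← hc m m.2, mul_smul, hω]

theorem stabilizer_eq_bot_of_comm (M : Subgroup G) [IsPretransitive M Ω] [IsMulCommutative M]
    (ω : Ω) : stabilizer M ω = ⊥ := by
  rw [eq_bot_iff]
  intro m hm
  rw [mem_bot]
  apply Subtype.ext
  apply eq_one_of_fix_of_commute M ω (m : G) hm
  intro n hn
  exact congrArg Subtype.val (mul_comm' (⟨n, hn⟩ : M) m)

theorem card_eq_of_regular (M : Subgroup G) [IsPretransitive M Ω] (ω : Ω)
    (h : stabilizer M ω = ⊥) : Nat.card Ω = Nat.card M := by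
  rw [← index_stabilizer_of_transitive M ω, h, index_bot]

end Cfsg.Agent.H4
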