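import Mathlib
import Cfsg.Agent.H4.SolvMin
import Cfsg.Agent.H4.Supersolvable4

set_option autoImplicit false

namespace Cfsg.Agent.H4

open Subgroup
open scoped Pointwise

/-- index of a core-free maximal subgroup is the order of any abelian... of a normal subgroup meeting
it trivially -/
theorem relIndex_eq_card_of_coreFree {G : Type*} [Group G] [Finite G] {U N L : Subgroup G}
    [N.Normal] [L.Normal] (hNU : N ⊓ U = ⊥) (hUN : U ⊔ N = ⊤) (hNL : N ≤ L) :
    U.relIndex L = Nat.card N := by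
  have h1 : U ⊔ L = ⊤ := by
    rw [eq_top_iff, ← hUN]; exact sup_le_sup_left hNL U
  rw [← relIndex_sup_normal U L, h1, ← hUN, relIndex_sup_normal U N, ← inf_relIndex_right,
    inf_comm, hNU, relIndex_bot_left]

theorem conj_of_coreFree_maximal {G : Type*} [Group G] [Finite G] [Group.IsSolvable G]
    (U V : Subgroup G) (hU : IsCoatom U) (hV : IsCoatom V) (hUc : U.normalCore = ⊥)
    (hVc : V.normalCore = ⊥) : ∃ g : G, MulAut.conj g • U = V := by
  have hnt : Nontrivial G := by
    by_contra hnt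
    rw [not_nontrivial_iff_subsingleton] at hnt
    exact hU.1 (Subsingleton.elim _ _)
  obtain ⟨N, hNn, hN0, -, hNmin⟩ :=
    exists_minimal_normal_le (D := (⊤ : Subgroup G)) inferInstance top_ne_bot
  obtain ⟨hNc, p, hp, hNp⟩ := minimal_normal_of_solvable N hN0 hNmin
  have hNC : N ≤ centralizer (N : Set G) := by
    intro a ha
    rw [mem_centralizer_iff]
    intro b hb
    exact comm_of_mem hb ha
  have hCN : centralizer (N : Set G) = N :=
    ((centralizer_minimal_of_coreFree hU hUc N hN0 N hNn hNC).resolve_left hN0).symm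
  have hNU : N ⊓ U = ⊥ := by
    have := centralizer_inf_eq_bot_of_coreFree hU hUc N hN0
    rwa [hCN] at this
  have hNV : N ⊓ V = ⊥ := by
    have := centralizer_inf_eq_bot_of_coreFree hV hVc N hN0
    rwa [hCN] at this
  have hUN : U ⊔ N = ⊤ := sup_eq_top_of_coreFree hU hUc N hN0
  have hVN : V ⊔ N = ⊤ := sup_eq_top_of_coreFree hV hVc N hN0
  by_cases hNt : N = ⊤
  · refine ⟨1, ?_⟩
    rw [hNt, top_inf_eq] at hNU hNV
    rw [hNU, hNV]; simp
  have hs := QuotientGroup.mk'_surjective N
  have hQnt : Nontrivial (G ⧸ N) := by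
    rw [← Finite.one_lt_card_iff_nontrivial, ← index_eq_card]
    have h1 : N.index ≠ 1 := fun h => hNt (index_eq_one.mp h)
    have h0 : N.index ≠ 0 := index_ne_zero_of_finite
    omega
  obtain ⟨L', hL'n, hL'0, -, hL'min⟩ :=
    exists_minimal_normal_le (D := (⊤ : Subgroup (G ⧸ N))) inferInstance top_ne_bot
  obtain ⟨-, q, hq, hL'q⟩ := minimal_normal_of_solvable L' hL'0 hL'min
  set L := L'.comap (QuotientGroup.mk' N) with hL
  have hLn : L.Normal := hL'n.comap _
  have hNL : N ≤ L := le_comap_mk' N L'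
  have hLmap : L.map (QuotientGroup.mk' N) = L' := map_comap_eq_self_of_surjective hs L'
  have hLc : Nat.card L = Nat.card N * Nat.card L' := card_comap_mk' N L'
  have : Fact p.Prime := ⟨hp⟩
  have : Fact q.Prime := ⟨hq⟩
  obtain ⟨a, ha⟩ := IsPGroup.iff_card.mp hNp
  obtain ⟨b, hb⟩ := IsPGroup.iff_card.mp hL'q
  have hqp : q ≠ p := by
    rintro rfl
    have hLp : IsPGroup q L := IsPGroup.of_card (n := a + b) (by rw [hLc, ha, hb, pow_add])
    have hLnil : Group.IsNilpotent L := hLp.isNilpotent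
    have h1 : L ≤ N := hCN ▸ nilpotent_normal_le_centralizer_minimal_normal N hNmin L
    apply hL'0
    rw [← hLmap, eq_bot_iff]
    refine (map_mono h1).trans ?_
    rw [QuotientGroup.map_mk'_self]
  -- a general fact for core-free maximal subgroups W complementing N
  have main : ∀ W : Subgroup G, IsCoatom W → W.normalCore = ⊥ → N ⊓ W = ⊥ → W ⊔ N = ⊤ →
      (∃ S : Sylow q L, (S : Subgroup L) = (L ⊓ W).subgroupOf L) ∧
      normalizer ((L ⊓ W : Subgroup G) : Set G) = W := by
    intro W hW hWc hNW hWN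
    have hidx : (L ⊓ W).relIndex L = Nat.card N := by
      rw [inf_relIndex_left]; exact relIndex_eq_card_of_coreFree hNW hWN hNL
    have hpg : IsPGroup q (L ⊓ W : Subgroup G) := by
      have hle : (L ⊓ W).map (QuotientGroup.mk' N) ≤ L' := hLmap ▸ map_mono inf_le_left
      have h1 : IsPGroup q ((L ⊓ W).map (QuotientGroup.mk' N)) := hL'q.to_le hle
      refine h1.of_injective ((QuotientGroup.mk' N).subgroupMap (L ⊓ W)) ?_
      rw [injective_iff_map_eq_one]
      intro x hx
      have h2 : QuotientGroup.mk' N (x : G) = 1 := congrArg Subtype.val hx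
      have h3 : (x : G) ∈ N := by
        rw [← QuotientGroup.ker_mk' N, MonoidHom.mem_ker]; exact h2
      have h4 : (x : G) ∈ N ⊓ W := ⟨h3, x.2.2⟩
      rw [hNW, mem_bot] at h4
      exact Subtype.ext h4
    have hpg' : IsPGroup q ((L ⊓ W).subgroupOf L) :=
      hpg.comap_of_injective L.subtype L.subtype_injective
    have hnd : ¬ q ∣ ((L ⊓ W).subgroupOf L).index := by
      change ¬ q ∣ (L ⊓ W).relIndex L
      rw [hidx, ha]
      intro h
      exact hqp ((Nat.prime_dvd_prime_iff_eq hq hp).mp (hq.dvd_of_dvd_pow h))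
    refine ⟨⟨hpg'.toSylow hnd, rfl⟩, ?_⟩
    have hle : W ≤ normalizer ((L ⊓ W : Subgroup G) : Set G) := by
      intro w hw
      have key : ∀ x ∈ W, MulAut.conj x • (L ⊓ W) ≤ L ⊓ W := by
        rintro x hx _ ⟨y, hy, rfl⟩
        exact ⟨hLn.conj_mem y hy.1 x, W.mul_mem (W.mul_mem hx hy.2) (W.inv_mem hx)⟩
      exact mem_normalizer_of_conj_smul_le (key w hw) (key w⁻¹ (inv_mem hw))
    by_contra hne
    have htop := hW.2 _ (lt_of_le_of_ne hle (Ne.symm hne))
    have hnorm : (L ⊓ W).Normal := normalizer_eq_top_iff.mp htop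
    have h1 : L ⊓ W ≤ W.normalCore := normal_le_normalCore.mpr inf_le_right
    rw [hWc, le_bot_iff] at h1
    rw [h1, relIndex_bot_left, hLc] at hidx
    have h2 : Nat.card L' = 1 := by
      have hpos : 0 < Nat.card N := Nat.card_pos
      exact Nat.eq_of_mul_eq_mul_left hpos (by rw [hidx, mul_one])
    exact hL'0 (card_eq_one.mp h2)
  obtain ⟨⟨SU, hSU⟩, hnU⟩ := main U hU hUc hNU hUN
  obtain ⟨⟨SV, hSV⟩, hnV⟩ := main V hV hVc hNV hVN
  obtain ⟨l, hl⟩ := MulAction.exists_smul_eq L SU SV
  refine ⟨(l : G), ?_⟩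
  have h1 : MulAut.conj l • (SU : Subgroup L) = (SV : Subgroup L) := by
    rw [← hl]; rfl
  rw [hSU, hSV, conj_smul_subgroupOf inf_le_left l] at h1
  have h2 : MulAut.conj (l : G) • (L ⊓ U) = L ⊓ V := by
    have h3 := congrArg (Subgroup.map L.subtype) h1
    rwa [map_subgroupOf_eq_of_le (conj_smul_le_of_le inf_le_left l),
      map_subgroupOf_eq_of_le inf_le_left] at h3
  rw [← hnU, smul_normalizer, h2, hnV]

end Cfsg.Agent.H4
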