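import Mathlib
import Cfsg.Agent.H4.Basic2

set_option autoImplicit false

namespace Cfsg.Agent.H4

open Subgroup

universe u

/-- If `N_G(P) ≤ M` for a Sylow `p`-subgroup `P`, then `|G : M| ≡ 1 mod p`. -/
theorem index_modEq_one_of_normalizer_le {G : Type*} [Group G] [Finite G] {p : ℕ} [Fact p.Prime]
    (P : Sylow p G) {M : Subgroup G} (hM : normalizer ((P : Subgroup G) : Set G) ≤ M) :
    M.index ≡ 1 [MOD p] := by
  have hPM : (P : Subgroup G) ≤ M := le_normalizer.trans hM
  have h1 : Nat.card (Sylow p G) = (normalizer ((P : Subgroup G) : Set G)).index :=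
    P.card_eq_index_normalizer
  have h2 : Nat.card (Sylow p M) = (normalizer ((P : Subgroup G) : Set G)).relIndex M := by
    rw [(P.subtype hPM).card_eq_index_normalizer]
    have := subgroupOf_normalizer_eq hPM
    rw [relIndex, this]
    rfl
  have h3 := relIndex_mul_index hM
  rw [← h1, ← h2] at h3
  have h4 : Nat.card (Sylow p G) ≡ 1 [MOD p] := card_sylow_modEq_one p G
  have h5 : Nat.card (Sylow p M) ≡ 1 [MOD p] := card_sylow_modEq_one p M
  have h6 : Nat.card (Sylow p M) * M.index ≡ 1 * M.index [MOD p] := h5.mul_right _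
  rw [h3, one_mul] at h6
  exact h6.symm.trans h4

theorem exists_largest_prime {n : ℕ} (h0 : n ≠ 0) (h1 : n ≠ 1) :
    ∃ p : ℕ, p.Prime ∧ p ∣ n ∧ ∀ q : ℕ, q.Prime → q ∣ n → q ≤ p := by
  have hne : n.primeFactors.Nonempty :=
    ⟨n.minFac, Nat.mem_primeFactors.mpr ⟨Nat.minFac_prime h1, Nat.minFac_dvd _, h0⟩⟩
  have hpmem := n.primeFactors.max'_mem hne
  rw [Nat.mem_primeFactors] at hpmem
  exact ⟨_, hpmem.1, hpmem.2.1, fun q hq hqd =>
    Finset.le_max' _ _ (Nat.mem_primeFactors.mpr ⟨hq, hqd, h0⟩)⟩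

/-- If all maximal subgroups have prime index, the Sylow subgroup for the largest prime is normal. -/
theorem sylow_normal_of_prime_index {G : Type*} [Group G] [Finite G]
    (h : ∀ M : Subgroup G, IsCoatom M → M.index.Prime) {p : ℕ} [Fact p.Prime]
    (hmax : ∀ q : ℕ, q.Prime → q ∣ Nat.card G → q ≤ p) (P : Sylow p G) :
    (P : Subgroup G).Normal := by
  rw [← normalizer_eq_top_iff]
  by_contra hne
  obtain ⟨M, hM, hle⟩ := (eq_top_or_exists_le_coatom _).resolve_left hne
  have hq := h M hM
  have h1 := index_modEq_one_of_normalizer_le P hle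
  have h2 : M.index ≤ p := hmax _ hq (index_dvd_card M)
  have hp : p.Prime := Fact.out
  rcases h2.lt_or_eq with h3 | h3
  · have h4 : M.index % p = 1 % p := h1
    rw [Nat.mod_eq_of_lt h3, Nat.mod_eq_of_lt hp.one_lt] at h4
    exact hq.one_lt.ne' h4
  · have h4 : M.index % p = 1 % p := h1
    rw [h3, Nat.mod_self, Nat.mod_eq_of_lt hp.one_lt] at h4
    exact zero_ne_one h4

theorem solvable_of_prime_index_aux : ∀ (n : ℕ) (G : Type u) [Group G] [Finite G],
    Nat.card G = n → (∀ M : Subgroup G, IsCoatom M → M.index.Prime) → Group.IsSolvable G := by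
  intro n
  induction n using Nat.strong_induction_on with
  | _ n ih =>
    intro G _ _ hn h
    rcases subsingleton_or_nontrivial G with hs | hnt
    · infer_instance
    have hc1 : Nat.card G ≠ 1 := (Finite.one_lt_card).ne'
    obtain ⟨p, hp, hpd, hmax⟩ := exists_largest_prime Nat.card_pos.ne' hc1
    have : Fact p.Prime := ⟨hp⟩
    obtain ⟨P⟩ : Nonempty (Sylow p G) := inferInstance
    have hPn : (P : Subgroup G).Normal := sylow_normal_of_prime_index h hmax P
    have hPbot : (P : Subgroup G) ≠ ⊥ := P.ne_bot_of_dvd_card hpd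
    have hQ : Group.IsSolvable (G ⧸ (P : Subgroup G)) := by
      apply ih _ (hn ▸ card_quotient_lt _ hPbot) _ rfl
      intro M' hM'
      have := h _ (isCoatom_comap_mk' _ hM')
      rwa [index_comap_of_surjective _ (QuotientGroup.mk'_surjective _)] at this
    have hPs : Group.IsSolvable (P : Subgroup G) := by
      have := P.isPGroup'.isNilpotent
      infer_instance
    exact (Group.isSolvable_iff_subgroup_quotient (P : Subgroup G)).mpr ⟨hPs, hQ⟩

end Cfsg.Agent.H4
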