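import Mathlib
import Cfsg.Agent.H4.Supersolvable2

set_option autoImplicit false

namespace Cfsg.Agent.H4

open Subgroup

universe u

theorem commutator_le_centralizer_of_cyclic_normal {G : Type*} [Group G] (N : Subgroup G) [N.Normal]
    [IsCyclic N] : commutator G ≤ centralizer (N : Set G) := by
  let f : G →* (ZMod (Nat.card N))ˣ :=
    (IsCyclic.mulAutMulEquiv N).toMonoidHom.comp (MulAut.conjNormal (H := N))
  have h1 : commutator G ≤ f.ker := Abelianization.commutator_subset_ker f
  refine h1.trans ?_
  intro x hx
  rw [MonoidHom.mem_ker] at hx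
  have h2 : MulAut.conjNormal (H := N) x = 1 := by
    apply (IsCyclic.mulAutMulEquiv N).injective
    rw [map_one]
    exact hx
  rw [mem_centralizer_iff]
  intro y hy
  have h3 := congrArg (fun φ : MulAut N => ((φ ⟨y, hy⟩ : N) : G)) h2
  simp only [MulAut.conjNormal_apply, MulAut.one_apply] at h3
  calc y * x = (x * y * x⁻¹) * x := by rw [h3]
    _ = x * y := by group

theorem commutator_nilpotent_aux : ∀ (n : ℕ) (G : Type u) [Group G] [Finite G],
    Nat.card G = n → Cfsg.IsSupersolvable G → Group.IsNilpotent (commutator G) := by
  intro n
  induction n using Nat.strong_induction_on with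
  | _ n ih =>
    intro G _ _ hn hG
    rcases subsingleton_or_nontrivial G with hs | hnt
    · infer_instance
    obtain ⟨N, hN, hp⟩ := exists_normal_prime_card hG
    have hNbot : N ≠ ⊥ := by
      rintro rfl
      simp at hp
      exact Nat.not_prime_one hp
    have : Fact (Nat.card N).Prime := ⟨hp⟩
    have hcyc : IsCyclic N := isCyclic_of_prime_card rfl
    have h1 := ih (Nat.card (G ⧸ N)) (hn ▸ card_quotient_lt N hNbot) (G ⧸ N) rfl
        (isSupersolvable_of_surjective _ (QuotientGroup.mk'_surjective N) hG)
    have hmem : ∀ x : commutator G, ((QuotientGroup.mk' N).comp (commutator G).subtype) x ∈ commutator (G ⧸ N) := by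
      intro x
      have h2 : (commutator G).map (QuotientGroup.mk' N) ≤ commutator (G ⧸ N) := by
        rw [commutator_def, commutator_def, map_commutator]
        exact commutator_mono le_top le_top
      exact h2 ⟨x, x.2, rfl⟩
    let f : commutator G →* commutator (G ⧸ N) :=
      ((QuotientGroup.mk' N).comp (commutator G).subtype).codRestrict (commutator (G ⧸ N)) hmem
    apply Subgroup.isNilpotent_of_ker_le_center f
    intro x hx
    rw [MonoidHom.mem_ker] at hx
    have hxN : (x : G) ∈ N := by
      have := congrArg Subtype.val hx
      rw [← QuotientGroup.ker_mk' N, MonoidHom.mem_ker]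
      exact this
    rw [mem_center_iff]
    intro y
    have hy := commutator_le_centralizer_of_cyclic_normal N y.2
    rw [mem_centralizer_iff] at hy
    apply Subtype.ext
    exact (hy x hxN).symm

theorem commutator_nilpotent {G : Type u} [Group G] [Finite G] (hG : Cfsg.IsSupersolvable G) :
    Group.IsNilpotent (commutator G) := commutator_nilpotent_aux _ G rfl hG

end Cfsg.Agent.H4
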