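import Mathlib
import Cfsg.Agent.H4.Supersolvable2

set_option autoImplicit false

namespace Cfsg.Agent.H4

open Subgroup

universe u

theorem zpowers_normal_of_conj_mem {G : Type*} [Group G] {v : G}
    (h : ∀ g : G, g * v * g⁻¹ ∈ zpowers v) : (zpowers v).Normal := by
  constructor
  intro n hn g
  obtain ⟨m, rfl⟩ := mem_zpowers_iff.mp hn
  rw [← conj_zpow]
  exact zpow_mem (h g) m

theorem normal_zpowers_of_index_two {G : Type*} [Group G] {K : Subgroup G} (hK : K.index = 2)
    {t u : G} (ht : t ∉ K) (hKu : ∀ x ∈ K, x * u * x⁻¹ = u) (htu : t⁻¹ * u * t ∈ zpowers u) :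
    (zpowers u).Normal := by
  apply zpowers_normal_of_conj_mem
  intro g
  by_cases hg : g ∈ K
  · rw [hKu g hg]; exact mem_zpowers u
  · have hx : t * g ∈ K := by
      rw [mul_mem_iff_of_index_two hK]
      exact ⟨fun h => absurd h ht, fun h => absurd h hg⟩
    have : g * u * g⁻¹ = t⁻¹ * ((t * g) * u * (t * g)⁻¹) * t := by group
    rw [this, hKu _ hx]
    exact htu

theorem exists_normal_cyclic_of_isPGroup {G : Type*} [Group G] [Finite G] [Nontrivial G] {r : ℕ}
    [Fact r.Prime] (h : IsPGroup r G) : ∃ N : Subgroup G, N.Normal ∧ IsCyclic N ∧ N ≠ ⊥ := by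
  have := h.center_nontrivial
  obtain ⟨z, hz⟩ := exists_ne (1 : center G)
  refine ⟨zpowers (z : G), ?_, inferInstance, ?_⟩
  · apply zpowers_normal_of_conj_mem
    intro g
    have := mem_center_iff.mp z.2 g
    rw [this]; simp
  · intro h0
    rw [zpowers_eq_bot] at h0
    exact hz (Subtype.ext h0)

theorem exists_normal_cyclic_of_card_two_mul {G : Type*} [Group G] [Finite G] {p j : ℕ}
    (hp : p.Prime) (hp2 : p ≠ 2) (hj : j ≠ 0) (hcard : Nat.card G = 2 * p ^ j) :
    ∃ N : Subgroup G, N.Normal ∧ IsCyclic N ∧ N ≠ ⊥ := by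
  have : Fact p.Prime := ⟨hp⟩
  have : Fact (Nat.Prime 2) := ⟨Nat.prime_two⟩
  obtain ⟨K, hK⟩ := Sylow.exists_subgroup_card_pow_prime (G := G) p (n := j)
    (by rw [hcard]; exact Dvd.intro_left 2 rfl)
  have hidx : K.index = 2 := by
    have h1 := K.card_mul_index
    rw [hK, hcard, mul_comm 2] at h1
    exact Nat.eq_of_mul_eq_mul_left (pow_pos hp.pos j) h1
  have hKn : K.Normal := normal_of_index_eq_two hidx
  have hKp : IsPGroup p K := IsPGroup.of_card hK
  have hKnt : Nontrivial K := by
    rw [← Finite.one_lt_card_iff_nontrivial, hK]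
    exact Nat.one_lt_pow hj hp.one_lt
  have := hKp.center_nontrivial
  obtain ⟨v0, hv0⟩ := exists_ne (1 : center K)
  obtain ⟨t, ht⟩ := exists_prime_orderOf_dvd_card' (G := G) 2 (by rw [hcard]; exact Dvd.intro _ rfl)
  have htK : t ∉ K := by
    intro h
    have h1 : orderOf (⟨t, h⟩ : K) ∣ Nat.card K := orderOf_dvd_natCard _
    rw [← Subgroup.orderOf_coe, hK] at h1
    simp only [ht] at h1
    have := (Nat.prime_dvd_prime_iff_eq Nat.prime_two hp).mp (Nat.prime_two.dvd_of_dvd_pow h1)
    exact hp2 this.symm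
  have htt : t * t = 1 := by
    have := pow_orderOf_eq_one t
    rwa [ht, pow_two] at this
  have hZn : ((center K).map K.subtype).Normal := ConjAct.normal_of_characteristic_of_normal
  set v : G := ((v0 : K) : G) with hv
  have hv1 : v ≠ 1 := by
    intro h
    apply hv0
    apply Subtype.ext
    apply Subtype.ext
    exact h
  have hvZ : v ∈ (center K).map K.subtype := ⟨v0, v0.2, rfl⟩
  have hcen : ∀ y ∈ (center K).map K.subtype, y ∈ K ∧ ∀ x ∈ K, x * y * x⁻¹ = y := by
    rintro y ⟨y0, hy0, rfl⟩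
    refine ⟨y0.2, fun x hx => ?_⟩
    have := mem_center_iff.mp hy0 ⟨x, hx⟩
    have h2 : x * (y0 : G) = y0 * x := congrArg Subtype.val this
    simp only [subtype_apply]
    rw [h2]; group
  set v' : G := t⁻¹ * v * t with hv'
  have hv'Z : v' ∈ (center K).map K.subtype := by
    have := hZn.conj_mem v hvZ t⁻¹
    simpa [hv'] using this
  have hvv' : v * v' = v' * v := by
    have := (hcen v' hv'Z).2 v (hcen v hvZ).1
    calc v * v' = (v * v' * v⁻¹) * v := by group
      _ = v' * v := by rw [this]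
  have htv' : t⁻¹ * v' * t = v := by
    have hti : t⁻¹ = t := inv_eq_of_mul_eq_one_left htt
    rw [hv', hti]
    calc t * (t * v * t) * t = (t * t) * v * (t * t) := by group
      _ = v := by rw [htt]; simp
  by_cases hw : v * v' = 1
  · refine ⟨zpowers v, ?_, inferInstance, by rwa [Ne, zpowers_eq_bot]⟩
    apply normal_zpowers_of_index_two hidx htK (hcen v hvZ).2
    have : t⁻¹ * v * t = v⁻¹ := (inv_eq_of_mul_eq_one_right hw).symm
    rw [this]
    exact inv_mem (mem_zpowers v)
  · refine ⟨zpowers (v * v'), ?_, inferInstance, by rwa [Ne, zpowers_eq_bot]⟩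
    apply normal_zpowers_of_index_two hidx htK
    · intro x hx
      have h1 := (hcen v hvZ).2 x hx
      have h2 := (hcen v' hv'Z).2 x hx
      calc x * (v * v') * x⁻¹ = (x * v * x⁻¹) * (x * v' * x⁻¹) := by group
        _ = v * v' := by rw [h1, h2]
    · have : t⁻¹ * (v * v') * t = v * v' := by
        calc t⁻¹ * (v * v') * t = (t⁻¹ * v * t) * (t⁻¹ * v' * t) := by group
          _ = v' * v := by rw [htv']
          _ = v * v' := hvv'.symm
      rw [this]
      exact mem_zpowers _

theorem ss_of_card_dvd_aux (p : ℕ) (hp : p.Prime) : ∀ (n : ℕ) (G : Type u) [Group G] [Finite G],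
    Nat.card G = n → (∃ k, Nat.card G ∣ 2 * p ^ k) → Cfsg.IsSupersolvable G := by
  intro n
  induction n using Nat.strong_induction_on with
  | _ n ih =>
    intro G _ _ hn hk
    rcases subsingleton_or_nontrivial G with hs | hnt
    · exact isSupersolvable_of_subsingleton
    obtain ⟨k, hk⟩ := hk
    have : Fact p.Prime := ⟨hp⟩
    have : Fact (Nat.Prime 2) := ⟨Nat.prime_two⟩
    have key : ∃ N : Subgroup G, N.Normal ∧ IsCyclic N ∧ N ≠ ⊥ := by
      by_cases hp2 : p = 2
      · subst hp2
        rw [← pow_succ'] at hk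
        obtain ⟨j, _, hj⟩ := (Nat.dvd_prime_pow Nat.prime_two).mp hk
        exact exists_normal_cyclic_of_isPGroup (IsPGroup.of_card hj)
      · by_cases h2 : 2 ∣ Nat.card G
        · obtain ⟨m, hm⟩ := h2
          rw [hm] at hk
          have hmk : m ∣ p ^ k := Nat.dvd_of_mul_dvd_mul_left (by norm_num) hk
          obtain ⟨j, _, hj⟩ := (Nat.dvd_prime_pow hp).mp hmk
          by_cases hj0 : j = 0
          · subst hj0
            rw [hj] at hm
            exact exists_normal_cyclic_of_isPGroup (r := 2) (IsPGroup.of_card (n := 1) (by simpa using hm))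
          · exact exists_normal_cyclic_of_card_two_mul hp hp2 hj0 (by rw [hm, hj])
        · have hcop : Nat.Coprime (Nat.card G) 2 :=
            ((Nat.Prime.coprime_iff_not_dvd Nat.prime_two).mpr h2).symm
          have hmk : Nat.card G ∣ p ^ k := hcop.dvd_of_dvd_mul_left hk
          obtain ⟨j, _, hj⟩ := (Nat.dvd_prime_pow hp).mp hmk
          exact exists_normal_cyclic_of_isPGroup (IsPGroup.of_card hj)
    obtain ⟨N, hN, hc, hne⟩ := key
    apply isSupersolvable_of_cyclic_normal N
    apply ih (Nat.card (G ⧸ N)) (hn ▸ card_quotient_lt N hne) (G ⧸ N) rfl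
    refine ⟨k, dvd_trans ?_ hk⟩
    rw [Subgroup.card_eq_card_quotient_mul_card_subgroup N]
    exact Dvd.intro _ rfl

end Cfsg.Agent.H4
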