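import Mathlib
import Cfsg.Agent.H4.Supersolvable4

set_option autoImplicit false

namespace Cfsg.Agent.H4

open Subgroup

universe u

theorem exists_normal_card_largest_prime_aux : ∀ (n : ℕ) (G : Type u) [Group G] [Finite G],
    Nat.card G = n → Cfsg.IsSupersolvable G → ∀ p : ℕ, p.Prime → p ∣ Nat.card G →
    (∀ q : ℕ, q.Prime → q ∣ Nat.card G → q ≤ p) → ∃ N : Subgroup G, N.Normal ∧ Nat.card N = p := by
  intro n
  induction n using Nat.strong_induction_on with
  | _ n ih =>
    intro G _ _ hn hG p hp hpd hmax
    have hnt : Nontrivial G := by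
      rw [← Finite.one_lt_card_iff_nontrivial]
      exact lt_of_lt_of_le hp.one_lt (Nat.le_of_dvd Nat.card_pos hpd)
    obtain ⟨N0, hN0, hq⟩ := exists_normal_prime_card hG
    by_cases hqp : Nat.card N0 = p
    · exact ⟨N0, hN0, hqp⟩
    set q := Nat.card N0 with hqdef
    have hcard := Subgroup.card_eq_card_quotient_mul_card_subgroup N0
    have hqle : q ≤ p := hmax q hq (card_subgroup_dvd_card N0)
    have hqlt : q < p := lt_of_le_of_ne hqle hqp
    have hpq : ¬ p ∣ q := fun h => hqp ((Nat.prime_dvd_prime_iff_eq hp hq).mp h).symm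
    have hpd' : p ∣ Nat.card (G ⧸ N0) := by
      rw [hcard] at hpd
      exact (hp.dvd_mul.mp hpd).resolve_right hpq
    obtain ⟨M', hM'n, hM'c⟩ := ih (Nat.card (G ⧸ N0)) (hn ▸ card_quotient_lt N0 (ne_bot_of_prime_card hq))
      (G ⧸ N0) rfl (isSupersolvable_of_surjective _ (QuotientGroup.mk'_surjective N0) hG) p hp hpd'
      (fun r hr hrd => hmax r hr (hrd.trans (by rw [hcard]; exact Dvd.intro _ rfl)))
    set M := M'.comap (QuotientGroup.mk' N0) with hM
    have hMn : M.Normal := hM'n.comap _
    have hMc : Nat.card M = q * p := by rw [hM, card_comap_mk', hM'c]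
    have : Fact p.Prime := ⟨hp⟩
    obtain ⟨P⟩ : Nonempty (Sylow p M) := inferInstance
    have hfac : (q * p).factorization p = 1 := by
      rw [Nat.factorization_mul hq.ne_zero hp.ne_zero]
      simp [hp.factorization_self, Nat.factorization_eq_zero_of_not_dvd hpq]
    have hPc : Nat.card P = p := by
      rw [P.card_eq_multiplicity, hMc, hfac, pow_one]
    have hPi : (P : Subgroup M).index = q := by
      have h1 := (P : Subgroup M).card_mul_index
      have h1' : p * (P : Subgroup M).index = p * q := by
        rw [mul_comm p q, ← hMc, ← h1]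
        congr 1
        exact hPc.symm
      exact Nat.eq_of_mul_eq_mul_left hp.pos h1'
    have hnp : Nat.card (Sylow p M) = 1 := by
      have h1 : Nat.card (Sylow p M) ∣ q := hPi ▸ P.card_dvd_index
      have h2 : Nat.card (Sylow p M) ≡ 1 [MOD p] := card_sylow_modEq_one p M
      rcases (Nat.dvd_prime hq).mp h1 with h3 | h3
      · exact h3
      · rw [h3] at h2
        have h4 : q % p = 1 % p := h2
        rw [Nat.mod_eq_of_lt hqlt, Nat.mod_eq_of_lt hp.one_lt] at h4
        exact absurd h4 hq.one_lt.ne'
    have hss : Subsingleton (Sylow p M) := by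
      rw [← Finite.card_le_one_iff_subsingleton, hnp]
    have hchar : (P : Subgroup M).Characteristic := Sylow.characteristic_of_subsingleton P
    refine ⟨(P : Subgroup M).map M.subtype, ConjAct.normal_of_characteristic_of_normal, ?_⟩
    rw [card_subtype]; exact hPc

theorem sorted_chain_aux : ∀ (n : ℕ) (G : Type u) [Group G] [Finite G],
    Nat.card G = n → Cfsg.IsSupersolvable G →
    ∃ (n : ℕ) (H : Fin (n + 1) → Subgroup G), H 0 = ⊥ ∧ H (Fin.last n) = ⊤ ∧ (∀ i, (H i).Normal) ∧
      (∀ i : Fin n, H i.castSucc ≤ H i.succ ∧ ((H i.castSucc).relIndex (H i.succ)).Prime) ∧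
      ∀ i j : Fin n, i ≤ j →
        (H j.castSucc).relIndex (H j.succ) ≤ (H i.castSucc).relIndex (H i.succ) := by
  intro n
  induction n using Nat.strong_induction_on with
  | _ n ih =>
    intro G _ _ hn hG
    rcases subsingleton_or_nontrivial G with hs | hnt
    · exact ⟨0, fun _ => ⊥, rfl, Subsingleton.elim _ _, fun _ => inferInstance,
        fun i => i.elim0, fun i => i.elim0⟩
    have hc1 : Nat.card G ≠ 1 := (Finite.one_lt_card).ne'
    have hne : (Nat.card G).primeFactors.Nonempty :=
      ⟨(Nat.card G).minFac, Nat.mem_primeFactors.mpr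
        ⟨Nat.minFac_prime hc1, Nat.minFac_dvd _, Nat.card_pos.ne'⟩⟩
    set p := (Nat.card G).primeFactors.max' hne with hpdef
    have hpmem := (Nat.card G).primeFactors.max'_mem hne
    rw [← hpdef, Nat.mem_primeFactors] at hpmem
    obtain ⟨hp, hpd, -⟩ := hpmem
    have hmax : ∀ q : ℕ, q.Prime → q ∣ Nat.card G → q ≤ p := fun q hq hqd =>
      Finset.le_max' _ _ (Nat.mem_primeFactors.mpr ⟨hq, hqd, Nat.card_pos.ne'⟩)
    obtain ⟨N, hN, hNc⟩ := exists_normal_card_largest_prime_aux _ G rfl hG p hp hpd hmax
    have hNbot : N ≠ ⊥ := ne_bot_of_prime_card (hNc ▸ hp)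
    have hs := QuotientGroup.mk'_surjective N
    obtain ⟨m, H, h0, hm, hnorm, hstep, hsort⟩ := ih (Nat.card (G ⧸ N))
      (hn ▸ card_quotient_lt N hNbot) (G ⧸ N) rfl (isSupersolvable_of_surjective _ hs hG)
    have hcard := Subgroup.card_eq_card_quotient_mul_card_subgroup N
    let H' : Fin (m + 1 + 1) → Subgroup G :=
      Fin.cons ⊥ (fun i => (H i).comap (QuotientGroup.mk' N))
    have hH'0 : H' 0 = ⊥ := rfl
    have hH's : ∀ i : Fin (m + 1), H' i.succ = (H i).comap (QuotientGroup.mk' N) := fun i => rfl
    have hr0 : (H' (Fin.castSucc 0)).relIndex (H' (Fin.succ 0)) = p := by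
      rw [Fin.castSucc_zero, hH'0, hH's, h0, MonoidHom.comap_bot, QuotientGroup.ker_mk',
        relIndex_bot_left, hNc]
    have hrs : ∀ j : Fin m, (H' (Fin.castSucc j.succ)).relIndex (H' (Fin.succ j.succ)) =
        (H j.castSucc).relIndex (H j.succ) := by
      intro j
      rw [← Fin.succ_castSucc, hH's, hH's, relIndex_comap, map_comap_eq_self_of_surjective hs]
    refine ⟨m + 1, H', hH'0, ?_, ?_, ?_, ?_⟩
    · rw [← Fin.succ_last, hH's, hm, comap_top]
    · intro i
      induction i using Fin.cases with
      | zero => rw [hH'0]; infer_instance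
      | succ i => rw [hH's]; exact (hnorm i).comap _
    · intro i
      induction i using Fin.cases with
      | zero =>
        refine ⟨?_, by rw [hr0]; exact hp⟩
        rw [Fin.castSucc_zero, hH'0]; exact bot_le
      | succ j =>
        refine ⟨?_, by rw [hrs]; exact (hstep j).2⟩
        rw [← Fin.succ_castSucc, hH's, hH's]
        exact comap_mono (hstep j).1
    · intro i j hij
      induction i using Fin.cases with
      | zero =>
        induction j using Fin.cases with
        | zero => exact le_rfl
        | succ j =>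
          rw [hr0, hrs]
          apply hmax _ (hstep j).2
          refine (relIndex_dvd_card _ _).trans ((card_subgroup_dvd_card _).trans ?_)
          rw [hcard]; exact Dvd.intro _ rfl
      | succ i =>
        induction j using Fin.cases with
        | zero => exact absurd hij (not_le.mpr (Fin.succ_pos i))
        | succ j =>
          rw [hrs, hrs]
          exact hsort i j (Fin.succ_le_succ_iff.mp hij)

end Cfsg.Agent.H4
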